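import Mathlib
import Cfsg.Agent.Lib.B43.Defs
import Cfsg.Agent.Lib.B43.CoB

/-!
Extensions of a group by a module, sections over subgroups, and the data used to split them.
-/

set_option autoImplicit false

namespace H95.B9

open Cfsg Subgroup H15 H16 H48.BR H95.B4

section ext

variable {F : Type*} [Field F] {G E : Type*} [Group G] [Group E] {V : Type*} [AddCommGroup V] [Module F V]

/-- an extension of `G` by the module `V` -/
structure Xt (π : E →* G) (ρ : Representation F G V) (ι : V → E) : Prop where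
  surj : Function.Surjective π
  add : ∀ v w, ι (v + w) = ι v * ι w
  inj : Function.Injective ι
  ker : ∀ e, π e = 1 ↔ ∃ v, ι v = e
  conj : ∀ e v, e * ι v * e⁻¹ = ι (ρ (π e) v)

/-- a multiplicative section over `H` -/
structure Sec (π : E →* G) (H : Subgroup G) (t : G → E) : Prop where
  proj : ∀ h ∈ H, π (t h) = h
  mul : ∀ a ∈ H, ∀ b ∈ H, t (a * b) = t a * t b

/-- the extension splits over `H` -/
def Spl (π : E →* G) (H : Subgroup G) : Prop := ∃ t, Sec π H t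

/-- cocycles on `H` -/
def Coc (ρ : Representation F G V) (H : Subgroup G) (f : G → V) : Prop :=
  ∀ a ∈ H, ∀ b ∈ H, f (a * b) = f a + ρ a (f b)

/-- every cocycle on `H` is a coboundary -/
def Ho (ρ : Representation F G V) (H : Subgroup G) : Prop :=
  ∀ f, Coc ρ H f → ∃ c, ∀ a ∈ H, f a = c - ρ a c

/-- `e` normalises the section `t` over `K` -/
def Nr (π : E →* G) (K : Subgroup G) (t : G → E) (e : E) : Prop :=
  ∀ k ∈ K, π e * k * (π e)⁻¹ ∈ K ∧ e * t k * e⁻¹ = t (π e * k * (π e)⁻¹)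

/-- `R` is normal in `S` of invertible order, `P / R` is perfect, trivial on the fixed space of `R`, which `m` negates -/
structure Cd (ρ : Representation F G V) (S P R : Subgroup G) (m : G) : Prop where
  RP : R ≤ P
  PS : P ≤ S
  mS : m ∈ S
  norm : ∀ g ∈ S, ∀ r ∈ R, g * r * g⁻¹ ∈ R
  card : (Nat.card R : F) ≠ 0
  gen : P ≤ R ⊔ ⁅P, P⁆
  idx : ∀ g ∈ S, g ∈ P ∨ m⁻¹ * g ∈ P
  fix : ∀ v ∈ Fx ρ R, (∀ g ∈ P, ρ g v = v) ∧ ρ m v = -v

variable {π : E →* G} {ρ : Representation F G V} {ι : V → E} {H K : Subgroup G} {t : G → E}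

theorem Xt.zero (X : Xt π ρ ι) : ι 0 = 1 := by
  have := X.add 0 0
  rwa [add_zero, left_eq_mul] at this

theorem Xt.neg (X : Xt π ρ ι) (v : V) : ι (-v) = (ι v)⁻¹ :=
  eq_inv_of_mul_eq_one_left (by rw [← X.add, neg_add_cancel, X.zero])

theorem Xt.proj (X : Xt π ρ ι) (v : V) : π (ι v) = 1 := (X.ker _).2 ⟨v, rfl⟩

theorem Xt.comm (X : Xt π ρ ι) (e : E) (v : V) : e * ι v = ι (ρ (π e) v) * e := by
  rw [← X.conj, inv_mul_cancel_right]

theorem Xt.exists_eq (X : Xt π ρ ι) {e e' : E} (h : π e = π e') : ∃ v, e = ι v * e' := by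
  obtain ⟨v, hv⟩ := (X.ker (e * e'⁻¹)).1 (by rw [map_mul, map_inv, h, mul_inv_cancel])
  exact ⟨v, by rw [hv, inv_mul_cancel_right]⟩

theorem Sec.mono (h : Sec π H t) (k : K ≤ H) : Sec π K t :=
  ⟨fun a ha => h.proj a (k ha), fun a ha b hb => h.mul a (k ha) b (k hb)⟩

theorem Sec.one (h : Sec π H t) : t 1 = 1 := by
  have := h.mul 1 H.one_mem 1 H.one_mem
  rwa [mul_one, left_eq_mul] at this

theorem Sec.inv (h : Sec π H t) {a : G} (ha : a ∈ H) : t a⁻¹ = (t a)⁻¹ :=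
  eq_inv_of_mul_eq_one_left (by rw [← h.mul _ (H.inv_mem ha) _ ha, inv_mul_cancel, h.one])

end ext

/-- an abstract graph on classes with the transitivity and connectivity used to glue sections -/
structure Gr (Γ : Type*) [Group Γ] {Ω : Type*} [MulAction Γ Ω] (P : Ω → Prop) (r ad : Ω → Ω → Prop)
    (a₀ a₁ : Ω) : Prop where
  p0 : P a₀
  p1 : P a₁
  ps : ∀ (g : Γ) a, P a → P (g • a)
  refl : ∀ a, r a a
  symm : ∀ a b, r a b → r b a
  trans : ∀ a b c, r a b → r b c → r a c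
  rs : ∀ (g : Γ) a b, r a b → r (g • a) (g • b)
  ads : ∀ (g : Γ) a b, ad a b → ad (g • a) (g • b)
  adr : ∀ a a' b, P b → r a a' → ad a b → ad a' b
  asy : ∀ a b, ad a b → ad b a
  arf : ∀ a, P a → ad a a
  tr : ∀ a, P a → ∃ g : Γ, g • a₀ = a
  tr2 : ∀ a b, P a → P b → ad a b → r a b ∨ ∃ g : Γ, r (g • a₀) a ∧ r (g • a₁) b
  g1 : ∀ a, P a → ∃ m, P m ∧ ad m a ∧ ad m a₀ ∧ ad m a₁
  g2 : ∀ b m m', P b → P m → P m' → ¬ ad a₀ b → ad m a₀ → ad m b → ad m' a₀ → ad m' b →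
    ∃ k k', P k ∧ P k' ∧ ad k a₀ ∧ ad k b ∧ ad k' a₀ ∧ ad k' b ∧ ad k m ∧ ad k' m' ∧ ad k k'

/-- adjacency of Leech vectors -/
def Ad (v w : leechLattice) : Prop := (16 : ℤ) ∣ dotInt (v : GolayPt → ℤ) (w : GolayPt → ℤ)

/-- the vector `(4, 0, -4, 0, ...)` -/
noncomputable def vY : leechLattice := vX - e8 (some 1)

/-- the elements fixing the frame vectors at the points of `T` -/
def PT (T : Finset GolayPt) : Subgroup (Stab vU) where
  carrier := {γ | ∀ i ∈ T, (γ : Co0) • e8 i = e8 i}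
  one_mem' i _ := by rw [coe_one, one_smul]
  mul_mem' h k i hi := by rw [coe_mul, mul_smul, k i hi, h i hi]
  inv_mem' h i hi := by rw [coe_inv, inv_smul_eq_iff, h i hi]

/-- the stabiliser of the classes of `vX` and `vY` -/
def SS : Subgroup (Stab vU) where
  carrier := {γ | Cu ((γ : Co0) • vX) vX ∧ Cu ((γ : Co0) • vY) vY}
  one_mem' := by rw [Set.mem_ofPred_eq, coe_one, one_smul, one_smul]; exact ⟨Cu.refl _, Cu.refl _⟩
  mul_mem' := fun {a b} h k => by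
    rw [Set.mem_ofPred_eq, coe_mul, mul_smul, mul_smul]
    exact ⟨(Cu.smul k.1 a).trans h.1, (Cu.smul k.2 a).trans h.2⟩
  inv_mem' := fun {a} h => by
    have h1 := (Cu.smul h.1 a⁻¹).symm
    have h2 := (Cu.smul h.2 a⁻¹).symm
    rw [coe_inv, inv_smul_smul] at h1 h2
    exact ⟨h1, h2⟩

theorem mem_PT {T : Finset GolayPt} {γ : Stab vU} : γ ∈ PT T ↔ ∀ i ∈ T, (γ : Co0) • e8 i = e8 i := Iff.rfl

theorem mem_SS {γ : Stab vU} : γ ∈ SS ↔ Cu ((γ : Co0) • vX) vX ∧ Cu ((γ : Co0) • vY) vY := Iff.rfl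

variable {F : Type*} [Field F]

/-- a monomial element carries the coordinates `a` to the coordinates `a'` -/
def Mp (γ : Stab vU) (a a' : GolayPt → F) : Prop :=
  ∀ σ d, H7.B4.IsMo γ σ d → ∀ i, a' (σ i) = H7.B4.sg F d (σ i) * a i

/-- the datum `Cd` in coordinates -/
structure Cc (F : Type*) [Field F] (S P R : Subgroup (Stab vU)) (m : Stab vU) : Prop where
  RP : R ≤ P
  PS : P ≤ S
  mS : m ∈ S
  norm : ∀ g ∈ S, ∀ r ∈ R, g * r * g⁻¹ ∈ R
  two : IsPGroup 2 R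
  gen : P ≤ R ⊔ ⁅P, P⁆
  idx : ∀ g ∈ S, g ∈ P ∨ m⁻¹ * g ∈ P
  fix : ∀ a : GolayPt → F, a none + a (some 0) = 0 → (∀ e ∈ R, Mp e a a) →
    (∀ g ∈ P, ∀ a', Mp g a a' → a' = a) ∧ ∀ a', Mp m a a' → a' = -a

/-- coordinates on the fixed space of the kernel of `φ` -/
structure Nm {C V : Type*} [Group C] [AddCommGroup V] [Module F V] (ρ : Representation F C V)
    (φ : C →* Stab vU) (j : V →ₗ[F] GolayPt → F) : Prop where
  surj : Function.Surjective φ
  two : IsPGroup 2 φ.ker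
  inj : ∀ v ∈ Fx ρ φ.ker, j v = 0 → v = 0
  sum : ∀ v ∈ Fx ρ φ.ker, j v none + j v (some 0) = 0
  law : ∀ c, ∀ v ∈ Fx ρ φ.ker, Mp (φ c) (j v) (j (ρ c v))

theorem eqns_Defs : True := by
  have := @Spl.eq_1.{0, 0}
  have := @Coc.eq_1.{0, 0, 0}
  have := @Ho.eq_1.{0, 0, 0}
  have := @Nr.eq_1.{0, 0}
  have := @Ad.eq_1
  have := @vY.eq_1
  have := @PT.eq_1
  have := @SS.eq_1
  have := @Mp.eq_1.{0}
  trivial

end H95.B9
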