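import Mathlib
import Cfsg.Agent.Lib.B59.Defs

set_option autoImplicit false

namespace H95.B9

open Cfsg Subgroup Module H15 H16 H48.BR H95.B4

variable {F : Type*} [Field F] {G E : Type*} [Group G] [Group E] {V : Type*} [AddCommGroup V] [Module F V]
  {π : E →* G} {ρ : Representation F G V} {ι : V → E} {H K : Subgroup G} {t t' : G → E}

theorem Spl.conj (X : Xt π ρ ι) (h : Spl π H) (g : G) (k : ∀ a ∈ K, g⁻¹ * a * g ∈ H) : Spl π K := by
  obtain ⟨t, ht⟩ := h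
  obtain ⟨e, rfl⟩ := X.surj g
  refine ⟨fun a => e * t ((π e)⁻¹ * a * π e) * e⁻¹, fun a ha => ?_, fun a ha b hb => ?_⟩
  · rw [map_mul, map_mul, map_inv, ht.proj _ (k a ha)]; group
  · rw [conj_mul, ← ht.mul _ (k a ha) _ (k b hb)]; congr 3; group

theorem Ho.conj (h : Ho ρ H) (g : G) (k : ∀ a, a ∈ K ↔ g⁻¹ * a * g ∈ H) : Ho ρ K := by
  intro f hf
  have m : ∀ b ∈ H, g * b * g⁻¹ ∈ K := fun b hb => (k _).2 (by simpa [mul_assoc] using hb)
  obtain ⟨c, hc⟩ := h (fun b => ρ g⁻¹ (f (g * b * g⁻¹))) fun a ha b hb => by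
    beta_reduce
    rw [← conj_mul, hf _ (m a ha) _ (m b hb), map_add, ← rep_mul, ← rep_mul]; congr 3; group
  refine ⟨ρ g c, fun a ha => ?_⟩
  have := congrArg (ρ g) (hc _ ((k a).1 ha))
  rwa [rep_inv', map_sub, ← rep_mul, show g * (g⁻¹ * a * g) * g⁻¹ = a by group, show g * (g⁻¹ * a * g) = a * g by group,
    rep_mul] at this

theorem Ho.of_sub (hK : K ≤ H) (h : Ho (G := H) (ρ.comp H.subtype) (K.subgroupOf H)) : Ho ρ K := by
  intro f hf
  obtain ⟨c, hc⟩ := h (fun b => f b) fun a ha b hb => hf _ ha _ hb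
  exact ⟨c, fun a ha => hc ⟨a, hK ha⟩ ha⟩

theorem Sec.agree {H' : Subgroup G} (X : Xt π ρ ι) (h : Sec π H t) (h' : Spl π H') (o : Ho ρ (H ⊓ H')) :
    ∃ t', Sec π H' t' ∧ ∀ g ∈ H ⊓ H', t' g = t g := by
  classical
  obtain ⟨s, hs⟩ := h'
  have ex : ∀ g, ∃ v, g ∈ H ⊓ H' → s g = ι v * t g := fun g => by
    by_cases hg : g ∈ H ⊓ H'
    · obtain ⟨v, hv⟩ := X.exists_eq ((hs.proj g hg.2).trans (h.proj g hg.1).symm)
      exact ⟨v, fun _ => hv⟩
    · exact ⟨0, fun k => (hg k).elim⟩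
  choose f hf using ex
  obtain ⟨c, hc⟩ := o f fun a ha b hb => X.inj (by
    have := hs.mul a ha.2 b hb.2
    rw [hf _ (mul_mem ha hb), hf a ha, hf b hb, h.mul a ha.1 b hb.1, mul_assoc, ← mul_assoc (t a), X.comm, h.proj a ha.1,
      mul_assoc, ← mul_assoc (ι (f a)), mul_left_inj] at this
    rw [this, X.add])
  refine ⟨fun g => (ι c)⁻¹ * s g * ι c, ⟨fun g hg => ?_, fun a ha b hb => ?_⟩, fun g hg => ?_⟩
  · rw [map_mul, map_mul, map_inv, X.proj, hs.proj g hg, inv_one, one_mul, mul_one]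
  · rw [hs.mul a ha b hb]; group
  · beta_reduce
    rw [hf g hg, mul_assoc, mul_assoc, X.comm, h.proj g hg.1, ← mul_assoc (ι (f g)), ← X.add, hc g hg, sub_add_cancel,
      inv_mul_cancel_left]

theorem Nr.one : Nr π K t 1 := fun k hk => by simpa using hk

theorem Nr.mul {e e' : E} (h : Nr π K t e) (h' : Nr π K t e') : Nr π K t (e * e') := fun k hk => by
  have := h _ (h' k hk).1
  rw [← (h' k hk).2] at this
  simpa only [map_mul, mul_inv_rev, mul_assoc] using this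

theorem Nr.congr {e : E} (h : Nr π K t e) (k : ∀ a ∈ K, t' a = t a) : Nr π K t' e := fun a ha =>
  ⟨(h a ha).1, by rw [k a ha, k _ (h a ha).1, (h a ha).2]⟩

theorem Nr.of_sec (h : Sec π H t) (hK : K ≤ H) {g : G} (hg : g ∈ H) (n : ∀ k ∈ K, g * k * g⁻¹ ∈ K) :
    Nr π K t (t g) := fun k hk => by
  rw [h.proj g hg, h.mul _ (mul_mem hg (hK hk)) _ (inv_mem hg), h.mul _ hg _ (hK hk), h.inv hg]
  exact ⟨n k hk, rfl⟩

theorem Nr.eq (X : Xt π ρ ι) (h : Sec π K t) (f : ∀ v ∈ Fx ρ K, v = 0) {e e' : E} (a : Nr π K t e)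
    (b : Nr π K t e') (c : π e = π e') : e = e' := by
  obtain ⟨v, hv⟩ := (X.ker (e'⁻¹ * e)).1 (by rw [map_mul, map_inv, c, inv_mul_cancel])
  have : v = 0 := f v (mem_Fx.2 fun k hk => X.inj (by
    have := (a k hk).2
    rw [c, ← (b k hk).2] at this
    rw [← h.proj k hk, ← X.conj, hv, mul_inv_eq_iff_eq_mul]
    calc t k * (e'⁻¹ * e) = e'⁻¹ * (e' * t k * e'⁻¹) * e := by group
      _ = _ := by rw [← this]; group))
  rw [this, X.zero] at hv
  exact (inv_mul_eq_one.1 hv.symm).symm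

theorem Xt.res (X : Xt π ρ ι) (C : Subgroup G) : ∃ (π' : C.comap π →* C) (ι' : V → C.comap π),
    Xt (G := C) π' (ρ.comp C.subtype) ι' ∧ (Spl π' ⊤ → Spl π C) := by
  classical
  refine ⟨π.subgroupComap C, fun v => ⟨ι v, by rw [mem_comap, X.proj]; exact one_mem C⟩,
    ⟨fun g => ?_, fun v w => Subtype.ext (X.add v w), fun v w e => X.inj (congrArg Subtype.val e), fun e => ?_,
      fun e v => Subtype.ext (X.conj e v)⟩, fun ⟨t, ht⟩ => ⟨fun g => if hg : g ∈ C then t ⟨g, hg⟩ else 1,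
        fun g hg => ?_, fun a ha b hb => ?_⟩⟩
  · obtain ⟨e, he⟩ := X.surj g
    exact ⟨⟨e, by rw [mem_comap, he]; exact g.2⟩, Subtype.ext he⟩
  · simp only [Subtype.ext_iff]; exact X.ker e
  · rw [dif_pos hg]; exact congrArg Subtype.val (ht.proj ⟨g, hg⟩ trivial)
  · rw [dif_pos ha, dif_pos hb, dif_pos (mul_mem ha hb)]
    exact congrArg Subtype.val (ht.mul ⟨a, ha⟩ trivial ⟨b, hb⟩ trivial)

end H95.B9
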