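import Mathlib
import Cfsg.Agent.Lib.B59.Sc

set_option autoImplicit false

namespace H95.B9

open Cfsg Subgroup Module H15 H16 H48.BR H95.B4

variable {F : Type*} [Field F] {G E : Type*} [Group G] [Group E] {V : Type*} [AddCommGroup V] [Module F V]
  {π : E →* G} {ρ : Representation F G V} {ι : V → E} {H K : Subgroup G} {t t' : G → E}

theorem Ga_out_mem (K : Subgroup G) (g : G) (a : G ⧸ K) : (g • a).out⁻¹ * g * a.out ∈ K := by
  rw [mul_assoc, ← QuotientGroup.eq, QuotientGroup.out_eq']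
  conv_lhs => rw [← QuotientGroup.out_eq' a]
  rfl

theorem exists_kappa (X : Xt π ρ ι) (h : Spl π K) : ∃ κ : E → G ⧸ K → V,
    (∀ e e' a, κ (e * e') a = κ e (π e' • a) + ρ (π e) (κ e' a)) ∧ ∀ v a, κ (ι v) a = v := by
  obtain ⟨t, ht⟩ := h
  choose s hs using X.surj
  have ex : ∀ (e : E) (a : G ⧸ K), ∃ v, e * s a.out =
      ι v * (s (π e • a).out * t ((π e • a).out⁻¹ * π e * a.out)) := by
    intro e a
    apply X.exists_eq
    rw [map_mul, map_mul, hs, hs, ht.proj _ (Ga_out_mem K _ a)]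
    group
  choose κ hκ using ex
  refine ⟨κ, fun e e' a => ?_, fun v a => ?_⟩
  · apply X.inj
    have h1 := hκ (e * e') a
    have h2 := hκ e' a
    have h3 := hκ e (π e' • a)
    rw [mul_assoc, h2, ← mul_assoc, X.comm, mul_assoc, ← mul_assoc e, h3, map_mul, mul_smul] at h1
    have h4 : t ((π e • π e' • a).out⁻¹ * (π e * π e') * a.out) =
        t ((π e • π e' • a).out⁻¹ * π e * (π e' • a).out) * t ((π e' • a).out⁻¹ * π e' * a.out) := by
      rw [← ht.mul _ (Ga_out_mem K _ _) _ (Ga_out_mem K _ _)]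
      congr 1
      group
    rw [h4] at h1
    rw [add_comm, X.add]
    simp only [← mul_assoc, mul_left_inj] at h1
    exact h1.symm
  · apply X.inj
    have h1 := hκ (ι v) a
    rw [X.proj, one_smul, mul_one, inv_mul_cancel, ht.one, mul_one, mul_left_inj] at h1
    exact h1.symm

theorem spl_of_der (X : Xt π ρ ι) {δ : E → V} {n : F} (hn : n ≠ 0)
    (mul : ∀ e e', π e ∈ H → π e' ∈ H → δ (e * e') = δ e + ρ (π e) (δ e')) (on : ∀ v, δ (ι v) = n • v) :
    Spl π H := by
  have hι : ∀ v e, π e ∈ H → δ (ι v * e) = n • v + δ e := by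
    intro v e he
    rw [mul _ _ (by rw [X.proj]; exact H.one_mem) he, on, X.proj, map_one]
    rfl
  have ex : ∀ g : G, ∃ e, g ∈ H → π e = g ∧ δ e = 0 := by
    intro g
    obtain ⟨e, rfl⟩ := X.surj g
    refine ⟨ι (-(n⁻¹ • δ e)) * e, fun hg => ⟨by rw [map_mul, X.proj, one_mul], ?_⟩⟩
    rw [hι _ _ hg, smul_neg, smul_smul, mul_inv_cancel₀ hn, one_smul, neg_add_cancel]
  choose t ht using ex
  refine ⟨t, fun g hg => (ht g hg).1, fun a ha b hb => ?_⟩
  have hp : π (t a * t b) = a * b := by rw [map_mul, (ht a ha).1, (ht b hb).1]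
  obtain ⟨v, hv⟩ := X.exists_eq (e := t (a * b)) (e' := t a * t b) (by rw [hp, (ht _ (H.mul_mem ha hb)).1])
  have h0 := (ht _ (H.mul_mem ha hb)).2
  rw [hv, hι _ _ (by rw [hp]; exact H.mul_mem ha hb),
    mul _ _ (by rw [(ht a ha).1]; exact ha) (by rw [(ht b hb).1]; exact hb), (ht a ha).2, (ht b hb).2,
    map_zero, add_zero, add_zero, smul_eq_zero] at h0
  rw [hv, h0.resolve_left hn, X.zero, one_mul]

theorem gaschutz (X : Xt π ρ ι) (hK : K ≤ H) (i : (K.relIndex H : F) ≠ 0) (h : Spl π K) : Spl π H := by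
  classical
  obtain ⟨κ, hm, ho⟩ := exists_kappa X h
  have i0 : (K.subgroupOf H).index ≠ 0 := by
    intro h0
    apply i
    rw [relIndex, h0, Nat.cast_zero]
  haveI : (K.subgroupOf H).FiniteIndex := ⟨i0⟩
  letI : Fintype (H ⧸ K.subgroupOf H) := Fintype.ofFinite _
  let j : H ⧸ K.subgroupOf H → G ⧸ K := fun a => ((a.out : H) : G)
  have hj : ∀ (g : H) a, j (g • a) = (g : G) • j a := by
    intro g a
    have := Ga_out_mem (K.subgroupOf H) g a
    rw [mem_subgroupOf, mul_assoc] at this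
    exact QuotientGroup.eq.2 this
  refine spl_of_der X (δ := fun e => ∑ a, κ e (j a)) i (fun e e' _ he' => ?_) (fun v => ?_)
  · simp only [hm, Finset.sum_add_distrib, map_sum, add_left_inj]
    refine Fintype.sum_equiv (MulAction.toPerm (⟨π e', he'⟩ : H)) _ _ fun a => ?_
    rw [MulAction.toPerm_apply, hj]
  · simp only [ho, Finset.sum_const, Finset.card_univ]
    rw [← Nat.card_eq_fintype_card, ← Nat.cast_smul_eq_nsmul F]
    rfl

theorem spl_of_card (X : Xt π ρ ι) (h : (Nat.card H : F) ≠ 0) : Spl π H := by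
  refine gaschutz X (K := ⊥) bot_le (by rwa [relIndex_bot_left]) ⟨fun _ => 1, fun g hg => ?_, fun _ _ _ _ => ?_⟩
  · rw [map_one, mem_bot.1 hg]
  · rw [mul_one]

theorem ho_of_card (h : (Nat.card H : F) ≠ 0) : Ho ρ H := by
  classical
  have h0 : Nat.card H ≠ 0 := by
    intro h0
    apply h
    rw [h0, Nat.cast_zero]
  haveI : Finite H := Nat.finite_of_card_ne_zero h0
  letI : Fintype H := Fintype.ofFinite _
  intro f hf
  refine ⟨(Nat.card H : F)⁻¹ • ∑ b : H, f b, fun a ha => ?_⟩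
  have e1 : ∑ b : H, f b = ∑ b : H, (f a + ρ a (f b)) := by
    refine (Fintype.sum_equiv (Equiv.mulLeft (⟨a, ha⟩ : H)) _ _ fun b => ?_).symm
    rw [← hf a ha b b.2]
    rfl
  rw [Finset.sum_add_distrib, Finset.sum_const, Finset.card_univ, ← Nat.card_eq_fintype_card,
    ← Nat.cast_smul_eq_nsmul F, ← map_sum] at e1
  rw [map_smul, ← smul_sub, eq_inv_smul_iff₀ h, eq_sub_iff_add_eq]
  exact e1.symm

end H95.B9
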