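import Mathlib
import Cfsg.Agent.Lib.B59.Ga

set_option autoImplicit false

namespace H95.B9

open Cfsg Subgroup Module H15 H16 H48.BR H95.B4

variable {F : Type*} [Field F] {G E : Type*} [Group G] [Group E] {V : Type*} [AddCommGroup V] [Module F V]
  {π : E →* G} {ρ : Representation F G V} {ι : V → E} {H K : Subgroup G} {t t' : G → E}

variable {S P R : Subgroup G} {m : G}

theorem cen_ho0 (h2 : (2 : F) ≠ 0) (N : Cd ρ S P R m) {f : G → V} (hf : Coc ρ S f)
    (h0 : ∀ r ∈ R, f r = 0) : ∃ c, ∀ a ∈ S, f a = c - ρ a c := by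
  have RS : R ≤ S := N.RP.trans N.PS
  have fx : ∀ g ∈ S, f g ∈ Fx ρ R := by
    intro g hg
    refine mem_Fx.2 fun r hr => ?_
    have hr' : g⁻¹ * r * g⁻¹⁻¹ ∈ R := N.norm _ (inv_mem hg) r hr
    have e1 := hf r (RS hr) g hg
    have e2 := hf g hg _ (RS hr')
    have e : g * (g⁻¹ * r * g⁻¹⁻¹) = r * g := by group
    rw [e, e1, h0 r hr, h0 _ hr', map_zero, add_zero, zero_add] at e2
    exact e2
  have add : ∀ a ∈ P, ∀ b ∈ P, f (a * b) = f a + f b := fun a ha b hb => by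
    rw [hf a (N.PS ha) b (N.PS hb), (N.fix _ (fx b (N.PS hb))).1 a ha]
  have neg : ∀ a ∈ P, f a⁻¹ = - f a := fun a ha => by
    have := add a ha a⁻¹ (inv_mem ha)
    rw [mul_inv_cancel, h0 1 (one_mem _)] at this
    exact eq_neg_of_add_eq_zero_right this.symm
  let Z : Subgroup G :=
    { carrier := {g | g ∈ P ∧ f g = 0}
      mul_mem' := fun {a b} ha hb => ⟨mul_mem ha.1 hb.1, by rw [add a ha.1 b hb.1, ha.2, hb.2, add_zero]⟩
      one_mem' := ⟨one_mem _, h0 1 (one_mem _)⟩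
      inv_mem' := fun {a} ha => ⟨inv_mem ha.1, by rw [neg a ha.1, ha.2, neg_zero]⟩ }
  have hZ : R ⊔ ⁅P, P⁆ ≤ Z := by
    refine sup_le (fun r hr => ⟨N.RP hr, h0 r hr⟩) (commutator_le.2 fun a ha b hb => ?_)
    rw [commutatorElement_def]
    refine ⟨mul_mem (mul_mem (mul_mem ha hb) (inv_mem ha)) (inv_mem hb), ?_⟩
    rw [add _ (mul_mem (mul_mem ha hb) (inv_mem ha)) _ (inv_mem hb), add _ (mul_mem ha hb) _ (inv_mem ha),
      add a ha b hb, neg a ha, neg b hb]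
    abel
  have zP : ∀ g ∈ P, f g = 0 := fun g hg => (hZ (N.gen hg)).2
  obtain ⟨f1, f2⟩ := N.fix _ (fx m N.mS)
  refine ⟨(2 : F)⁻¹ • f m, fun a ha => ?_⟩
  rcases N.idx a ha with h | h
  · rw [zP a h, map_smul, f1 a h, sub_self]
  · have e : a = m * (m⁻¹ * a) := by group
    rw [e, hf m N.mS _ (N.PS h), zP _ h, map_zero, add_zero, map_smul, map_mul, Module.End.mul_apply,
      f1 _ h, f2, smul_neg, sub_neg_eq_add, ← two_smul F, smul_smul, mul_inv_cancel₀ h2, one_smul]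

theorem Cd.ho (h2 : (2 : F) ≠ 0) (N : Cd ρ S P R m) : Ho ρ S := by
  intro f hf
  have RS : R ≤ S := N.RP.trans N.PS
  obtain ⟨c, hc⟩ := ho_of_card (ρ := ρ) N.card f fun a ha b hb => hf a (RS ha) b (RS hb)
  obtain ⟨c', hc'⟩ := cen_ho0 h2 N (f := fun g => f g - (c - ρ g c)) (fun a ha b hb => by
    simp only [hf a ha b hb, map_mul, Module.End.mul_apply, map_sub]
    abel) fun r hr => by rw [hc r hr, sub_self]
  refine ⟨c + c', fun a ha => ?_⟩
  have := hc' a ha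
  rw [sub_eq_iff_eq_add] at this
  rw [this, map_add]
  abel

theorem Cd.exists_cen (X : Xt π ρ ι) (N : Cd ρ S P R m) : ∃ (M : Subgroup E) (t : G → E), Sec π R t ∧
    (∀ r ∈ R, t r ∈ M) ∧ (∀ e ∈ M, π e ∈ P) ∧ (∀ g ∈ P, ∃ e ∈ M, π e = g) ∧
    ∀ v, ι v ∈ M → ∀ e ∈ M, e * ι v = ι v * e := by
  obtain ⟨t, ht⟩ := spl_of_card X N.card
  let M : Subgroup E :=
    { carrier := {e | π e ∈ P ∧ Nr π R t e}
      mul_mem' := fun {a b} ha hb => ⟨by rw [map_mul]; exact mul_mem ha.1 hb.1, ha.2.mul hb.2⟩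
      one_mem' := ⟨by rw [map_one]; exact one_mem _, Nr.one⟩
      inv_mem' := fun {a} ha => ⟨by rw [map_inv]; exact inv_mem ha.1, fun k hk => by
        have hk' : (π a)⁻¹ * k * (π a)⁻¹⁻¹ ∈ R := N.norm _ (inv_mem (N.PS ha.1)) k hk
        rw [map_inv]
        refine ⟨hk', ?_⟩
        have := (ha.2 _ hk').2
        have e : π a * ((π a)⁻¹ * k * (π a)⁻¹⁻¹) * (π a)⁻¹ = k := by group
        rw [e] at this
        rw [← this]
        group⟩ }
  refine ⟨M, t, ht, fun r hr => ⟨by rw [ht.proj r hr]; exact N.RP hr,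
    Nr.of_sec ht le_rfl hr fun k hk => N.norm r (N.PS (N.RP hr)) k hk⟩, fun e he => he.1,
    fun g hg => ?_, fun v hv e he => ?_⟩
  · obtain ⟨e0, rfl⟩ := X.surj g
    have nm : ∀ r ∈ R, π e0 * r * (π e0)⁻¹ ∈ R := N.norm _ (N.PS hg)
    have ex : ∀ r : G, ∃ v, r ∈ R → e0⁻¹ * t (π e0 * r * (π e0)⁻¹) * e0 = ι v * t r := by
      intro r
      by_cases hr : r ∈ R
      · obtain ⟨v, hv⟩ := X.exists_eq (e := e0⁻¹ * t (π e0 * r * (π e0)⁻¹) * e0) (e' := t r) (by
          rw [map_mul, map_mul, map_inv, ht.proj _ (nm r hr), ht.proj r hr]; group)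
        exact ⟨v, fun _ => hv⟩
      · exact ⟨0, fun h => absurd h hr⟩
    choose f hf using ex
    obtain ⟨c, hc⟩ := ho_of_card (ρ := ρ) N.card f fun a ha b hb => by
      apply X.inj
      have e1 := hf (a * b) (mul_mem ha hb)
      have e : π e0 * (a * b) * (π e0)⁻¹ = π e0 * a * (π e0)⁻¹ * (π e0 * b * (π e0)⁻¹) := by group
      rw [e, ht.mul _ (nm a ha) _ (nm b hb), ht.mul a ha b hb] at e1
      have e2 := X.comm (t a) (f b)
      rw [ht.proj a ha] at e2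
      have e3 : ι (f (a * b)) * (t a * t b) = ι (f a + ρ a (f b)) * (t a * t b) := by
        calc ι (f (a * b)) * (t a * t b)
            = (e0⁻¹ * t (π e0 * a * (π e0)⁻¹) * e0) * (e0⁻¹ * t (π e0 * b * (π e0)⁻¹) * e0) := by
              rw [← e1]; group
          _ = ι (f a) * (t a * ι (f b)) * t b := by rw [hf a ha, hf b hb]; group
          _ = _ := by rw [e2, X.add]; group
      exact mul_right_cancel e3
    have pe : π (e0 * ι c) = π e0 := by rw [map_mul, X.proj, mul_one]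
    refine ⟨e0 * ι c, ⟨by rw [pe]; exact hg, fun k hk => ?_⟩, pe⟩
    rw [pe]
    refine ⟨nm k hk, ?_⟩
    have e1 := hf k hk
    have e2 := X.comm (t k) (-c)
    rw [ht.proj k hk, map_neg, X.neg c] at e2
    rw [hc k hk, sub_eq_add_neg, X.add, mul_assoc (ι c), ← e2] at e1
    calc e0 * ι c * t k * (e0 * ι c)⁻¹ = e0 * (ι c * (t k * (ι c)⁻¹)) * e0⁻¹ := by group
      _ = _ := by rw [← e1]; group
  · have fx : v ∈ Fx ρ R := mem_Fx.2 fun k hk => by
      have e1 := (hv.2 k hk).2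
      rw [X.proj, one_mul, inv_one, mul_one, mul_inv_eq_iff_eq_mul, X.comm, ht.proj k hk] at e1
      exact (X.inj (mul_right_cancel e1)).symm
    rw [X.comm, (N.fix v fx).1 _ he.1]

end H95.B9
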