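import Mathlib
import Cfsg.Agent.Lib.B59.Defs
import Cfsg.Agent.Lib.B43.OrbB
import Cfsg.Agent.Lib.B43.Sh
import Cfsg.Agent.Lib.B43.Mo
import Cfsg.Agent.Lib.B43.ShA

set_option autoImplicit false

namespace H95.B9

open Cfsg Subgroup Module H15 H16 H48.BR H95.B4

theorem coe_Y : (vY : GolayPt → ℤ) = v44 none (some 1) 1 (-1) := by
  rw [vY, AddSubgroup.coe_sub, coe_X, coe_e8]
  funext x
  simp only [Pi.sub_apply, v44_apply, Pi.single_apply]
  split_ifs <;> omega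

theorem tw_Y : B4.Tw vY := by
  refine ⟨by rw [coe_Y, sqNorm_v44 (by simp) (Or.inl rfl) (Or.inr rfl)], ?_⟩
  rw [B4.Sh.dot_U, coe_Y, v44_apply, v44_apply]
  decide

theorem Ad.congr {a a' b : leechLattice} (hb : B4.Tw b) (e : Cu a a') (h : Ad a b) : Ad a' b := by
  have h2 := hb.2
  unfold Ad at *
  rcases e with e | e <;> obtain ⟨t, k⟩ := cg_iff.1 e <;> have := eight_dvd_dotInt t.2 b.2 <;>
    have k' := congrArg (fun x : leechLattice => dotInt (x : GolayPt → ℤ) (b : GolayPt → ℤ)) k <;>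
    simp only [AddSubgroup.coe_add, H16.dotInt_add_left] at k' <;> omega

theorem GrA_four {w : leechLattice} (h : B4.Tw w) (e : (w : GolayPt → ℤ) none = 4) :
    ∃ k, k ≠ none ∧ k ≠ some 0 ∧ ∃ t : ℤ, (t = 1 ∨ t = -1) ∧ (w : GolayPt → ℤ) = v44 none k 1 t := by
  have c := OrbB_coord h
  have key : ∀ {j : GolayPt} {s t : ℤ}, none ≠ j → (t = 1 ∨ t = -1) → (w : GolayPt → ℤ) = v44 none j s t →
      ∃ k, k ≠ none ∧ k ≠ some 0 ∧ ∃ t : ℤ, (t = 1 ∨ t = -1) ∧ (w : GolayPt → ℤ) = v44 none k 1 t := by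
    intro j s t hj ht k
    rw [e, k, v44_apply] at c
    rw [k, v44_apply, if_pos rfl, if_neg hj] at e
    obtain rfl : s = 1 := by omega
    refine ⟨j, hj.symm, ?_, t, ht, k⟩
    rintro rfl
    simp at c
    omega
  rcases min_shape w.2 h.1 with ⟨i, j, hij, s, t, hs, ht, k⟩ | ⟨o, _, s, _, _, k⟩ | ⟨d, _, j, k⟩
  · by_cases hi : none = i
    · subst hi
      exact key hij ht k
    · by_cases hj : none = j
      · subst hj
        exact key hi hs (k.trans (v44_comm _ _ _ _))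
      · rw [k, v44_apply, if_neg hi, if_neg hj] at e
        omega
  · rw [k, oct_apply] at e
    split_ifs at e <;> omega
  · rw [k, odd_apply] at e
    split_ifs at e <;> omega

theorem GrA_three {w : leechLattice} (h : B4.Tw w) (e : (w : GolayPt → ℤ) none = 3) :
    ∃ c ∈ code, none ∈ c ∧ some 0 ∉ c ∧ (w : GolayPt → ℤ) = H16.sgn c (odd3 none) := by
  have c := OrbB_coord h
  obtain ⟨d, hd, j, k⟩ := OrbB_odd h (by omega)
  rw [e, k, odd_apply] at c
  rw [k, odd_apply] at e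
  obtain rfl : none = j := by
    by_contra hj
    rw [if_neg hj] at e
    split_ifs at e <;> omega
  refine ⟨d, hd, ?_, fun h0 => ?_, k⟩
  · by_contra h0
    rw [if_pos rfl, if_neg h0] at e
    omega
  · rw [if_neg (by simp), if_pos h0] at c
    omega

theorem GrA_le {w : leechLattice} (h : B4.Tw w) (p : GolayPt) : (w : GolayPt → ℤ) p ≤ 4 := by
  rcases min_shape w.2 h.1 with ⟨i, j, hij, s, t, hs, ht, k⟩ | ⟨o, _, s, _, _, k⟩ | ⟨d, _, j, k⟩
  · rw [k, v44_apply]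
    split_ifs with a b
    · exact absurd (a.symm.trans b) hij
    all_goals omega
  · rw [k, oct_apply]
    split_ifs <;> omega
  · rw [k, odd_apply]
    split_ifs <;> omega

/-- the shapes of the vectors `Tw`, up to `w ↦ vU - w` -/
theorem tw_shape {w : leechLattice} (h : B4.Tw w) : ∃ w' : leechLattice, B4.Tw w' ∧ Cu w w' ∧
    ((∃ k, k ≠ none ∧ k ≠ some 0 ∧ ∃ t : ℤ, (t = 1 ∨ t = -1) ∧ (w' : GolayPt → ℤ) = v44 none k 1 t) ∨ Hx w' ∨
      ∃ c ∈ code, none ∈ c ∧ some 0 ∉ c ∧ (w' : GolayPt → ℤ) = H16.sgn c (odd3 none)) := by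
  have c := OrbB_coord h
  have l1 := GrA_le h none
  have l2 := GrA_le h (some 0)
  have h' := OrbB_sub h
  have cu := (h.cu h').2 (Or.inr rfl)
  have e : ((vU - w : leechLattice) : GolayPt → ℤ) none = 4 - (w : GolayPt → ℤ) none := by
    rw [AddSubgroup.coe_sub, Pi.sub_apply, OrbB_U_none]
  obtain k | k | k | k | k : (w : GolayPt → ℤ) none = 0 ∨ (w : GolayPt → ℤ) none = 1 ∨
      (w : GolayPt → ℤ) none = 2 ∨ (w : GolayPt → ℤ) none = 3 ∨ (w : GolayPt → ℤ) none = 4 := by omega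
  · exact ⟨_, h', cu, Or.inl (GrA_four h' (by omega))⟩
  · exact ⟨_, h', cu, Or.inr (Or.inr (GrA_three h' (by omega)))⟩
  · exact ⟨_, h, Cu.refl _, Or.inr (Or.inl ⟨h, k⟩)⟩
  · exact ⟨_, h, Cu.refl _, Or.inr (Or.inr (GrA_three h k))⟩
  · exact ⟨_, h, Cu.refl _, Or.inl (GrA_four h k)⟩

theorem GrA_core {a b : leechLattice} (ha : B4.Tw a) (hb : B4.Tw b)
    (h : dotInt (a : GolayPt → ℤ) (b : GolayPt → ℤ) = 16) :
    ∃ g : Stab vU, Cu ((g : Co0) • vX) a ∧ Cu ((g : Co0) • vY) b := by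
  have a1 := ha.1
  have a2 := ha.2
  have b1 := hb.1
  have b2 := hb.2
  obtain ⟨g0, hg, e⟩ := co2_trans (x := a - b) (y := vUP)
    (by rw [mem_Min, AddSubgroup.coe_sub, sqNorm_sub]; omega) norm_UP
    (by rw [AddSubgroup.coe_sub, dotInt_sub_right, dot_UUP]; omega)
  obtain ⟨g, rfl⟩ : ∃ g : Stab vU, (g : Co0) = g0 := ⟨⟨g0, hg⟩, rfl⟩
  have ha' := ha.smul g
  have c := OrbB_coord ha'
  have d := dotInt_co0 (g : Co0) (a - b) a
  rw [e, coe_UP, dotInt_v44, AddSubgroup.coe_sub, dotInt_sub_left, dotInt_self, dotInt_comm] at d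
  obtain ⟨k, k1, k2, t, ht, s⟩ := GrA_four ha' (by omega)
  obtain ⟨γ, hγ, eγ⟩ := ShA_ex k1 k2 ht
  have eX : (γ : Co0) • vX = (g : Co0) • a := Subtype.ext (eγ.trans s.symm)
  have e8U : e8 none = vU + vUP := Subtype.ext (by
    rw [AddSubgroup.coe_add, coe_e8, coe_U, coe_UP]
    funext x
    simp only [Pi.add_apply, v44_apply, Pi.single_apply]
    split_ifs <;> omega)
  have eY : vY = e8 none + -vX := Subtype.ext (by
    rw [AddSubgroup.coe_add, AddSubgroup.coe_neg, coe_e8, coe_X, coe_Y]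
    funext x
    simp only [Pi.add_apply, Pi.neg_apply, v44_apply, Pi.single_apply]
    split_ifs <;> omega)
  have cY : Cu ((γ : Co0) • vY) ((g : Co0) • b) := by
    rw [eY, smul_add, smul_neg, eX]
    refine ((mem_MM.1 hγ).add (Cu.refl _)).trans (Cu.symm ?_)
    rw [e8U, ← e, smul_sub, show vU + ((g : Co0) • a - (g : Co0) • b) + -((g : Co0) • a) = vU - (g : Co0) • b by abel]
    exact ((hb.smul g).cu (OrbB_sub (hb.smul g))).2 (Or.inr rfl)
  refine ⟨g⁻¹ * γ, ?_, ?_⟩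
  · rw [coe_mul, mul_smul, eX, coe_inv, inv_smul_smul]
    exact Cu.refl _
  · have := cY.smul g⁻¹
    rwa [coe_inv, inv_smul_smul, ← mul_smul] at this

theorem gr_tr2 {a b : leechLattice} (ha : B4.Tw a) (hb : B4.Tw b) (h : Ad a b) :
    Cu a b ∨ ∃ g : Stab vU, Cu ((g : Co0) • vX) a ∧ Cu ((g : Co0) • vY) b := by
  have hb' := OrbB_sub hb
  have cu := ((hb.cu hb').2 (Or.inr rfl)).symm
  have a1 := ha.1
  have a2 := ha.2
  have b1 := hb.1
  have b2 := hb'.1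
  have d : dotInt (a : GolayPt → ℤ) ((vU - b : leechLattice) : GolayPt → ℤ) =
      16 - dotInt (a : GolayPt → ℤ) (b : GolayPt → ℤ) := by
    rw [AddSubgroup.coe_sub, dotInt_sub_right, dotInt_comm, a2]
  have n1 := sqNorm_sub (a : GolayPt → ℤ) (b : GolayPt → ℤ)
  have n2 := sqNorm_sub (a : GolayPt → ℤ) ((vU - b : leechLattice) : GolayPt → ℤ)
  have p1 := sqNorm_nonneg ((a : GolayPt → ℤ) - (b : GolayPt → ℤ))
  have p2 := sqNorm_nonneg ((a : GolayPt → ℤ) - ((vU - b : leechLattice) : GolayPt → ℤ))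
  unfold Ad at h
  obtain k | k | k | k : dotInt (a : GolayPt → ℤ) (b : GolayPt → ℤ) = -16 ∨
      dotInt (a : GolayPt → ℤ) (b : GolayPt → ℤ) = 0 ∨ dotInt (a : GolayPt → ℤ) (b : GolayPt → ℤ) = 16 ∨
      dotInt (a : GolayPt → ℤ) (b : GolayPt → ℤ) = 32 := by omega
  · obtain rfl : a = vU - b := Subtype.ext (sub_eq_zero.1 ((sqNorm_eq_zero_iff _).1 (by omega)))
    exact Or.inl cu
  · obtain ⟨g, g1, g2⟩ := GrA_core ha hb' (by omega)
    exact Or.inr ⟨g, g1, g2.trans cu⟩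
  · exact Or.inr (GrA_core ha hb k)
  · obtain rfl : a = b := Subtype.ext (sub_eq_zero.1 ((sqNorm_eq_zero_iff _).1 (by omega)))
    exact Or.inl (Cu.refl _)

end H95.B9
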