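import Mathlib
import Cfsg.Agent.Lib.B59.GrA

set_option autoImplicit false

namespace H95.B9

open Cfsg Subgroup Module H15 H16 H48.BR H95.B4

variable {F : Type*} [Field F]

open scoped symmDiff Pointwise

theorem Fx3_neg (h2 : (2 : F) ≠ 0) {x : F} (h : x = -1 * x) : x = 0 :=
  (mul_eq_zero.1 (show 2 * x = 0 by linear_combination h)).resolve_left h2

theorem Fx3_cu {w w' : leechLattice} (h : B4.Tw w) (γ : Stab vU)
    (e : (((γ : Co0) • w : leechLattice) : GolayPt → ℤ) = w ∨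
      (((γ : Co0) • w : leechLattice) : GolayPt → ℤ) = (vU : GolayPt → ℤ) - w) : Cu ((γ : Co0) • w) w :=
  ((h.cu (h.smul γ)).2 (e.imp Subtype.ext Subtype.ext)).symm

theorem Fx3_sub {k : GolayPt} (t : ℤ) :
    v44 (some 0) k 1 (-t) = (vU : GolayPt → ℤ) - v44 none k 1 t := by
  funext p
  rw [coe_U, Pi.sub_apply, v44_apply, v44_apply, v44_apply]
  split_ifs <;> ring

/-- the monomial elements used -/
theorem Fx3_key {w : leechLattice} (hw : B4.Tw w) {a : GolayPt → F}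
    (hf : ∀ γ ∈ SS, Cu ((γ : Co0) • w) w → Mp γ a a) {σ : Equiv.Perm GolayPt} (hσ : σ ∈ M24)
    {c : Finset GolayPt} (hc : c ∈ code) (c1 : none ∉ c) (c2 : some 0 ∉ c) (s1 : σ (some 1) = some 1)
    (h : (σ none = none ∧ σ (some 0) = some 0 ∧ some 1 ∉ c) ∨
      (σ none = some 0 ∧ σ (some 0) = none ∧ some 1 ∈ c))
    (e : signedPerm σ c w = w ∨ signedPerm σ c w = (vU : GolayPt → ℤ) - w) (i : GolayPt) :
    a (σ i) = H7.B4.sg F c (σ i) * a i := by
  have hU : mono σ hσ c hc ∈ Stab vU := by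
    rw [mem_Stab]
    apply Subtype.ext
    rw [coe_mono_smul, coe_U, signedPerm_v44]
    rcases h with ⟨a, b, -⟩ | ⟨a, b, -⟩ <;> rw [a, b, if_neg c1, if_neg c2]
    exact v44_comm _ _ _ _
  refine hf ⟨_, hU⟩ ⟨Fx3_cu (w' := vX) tw_X _ ?_, Fx3_cu (w' := vY) tw_Y _ ?_⟩
    (Fx3_cu (w' := w) hw _ e) σ c ⟨hσ, hc, rfl⟩ i
  · rw [coe_mono_smul, coe_X, signedPerm_v44, s1]
    rcases h with ⟨a, -, b⟩ | ⟨a, -, b⟩ <;> rw [a]
    · rw [if_neg c1, if_neg b]; exact Or.inl rfl
    · rw [if_neg c2, if_pos b]; exact Or.inr (Fx3_sub 1)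
  · rw [coe_mono_smul, coe_Y, signedPerm_v44, s1]
    rcases h with ⟨a, -, b⟩ | ⟨a, -, b⟩ <;> rw [a]
    · rw [if_neg c1, if_neg b]; exact Or.inl rfl
    · rw [if_neg c2, if_pos b]; exact Or.inr (Fx3_sub (-1))

theorem Fx3_mem {c S p : Finset GolayPt} (e : c ∩ S = p) {x : GolayPt} (hx : x ∈ S) : x ∈ c ↔ x ∈ p := by
  rw [← e, Finset.mem_inter, and_iff_left hx]

/-- a sign change kills a coordinate off the support -/
theorem Fx3_off (h2 : (2 : F) ≠ 0) {w : leechLattice} (hw : B4.Tw w) {a : GolayPt → F}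
    (hf : ∀ γ ∈ SS, Cu ((γ : Co0) • w) w → Mp γ a a) {c S : Finset GolayPt} {i : GolayPt} (hc : c ∈ code)
    (e : c ∩ insert i S = {i}) (hi : i ∉ S) (s1 : none ∈ S) (s2 : some 0 ∈ S) (s3 : some 1 ∈ S)
    (h : ∀ p ∉ S, (w : GolayPt → ℤ) p = 0) : a i = 0 := by
  have k : ∀ p ∈ S, p ∉ c := fun p hp q =>
    hi (Finset.mem_singleton.1 ((Fx3_mem e (Finset.mem_insert_of_mem hp)).1 q) ▸ hp)
  have := Fx3_key hw hf (one_mem _) hc (k _ s1) (k _ s2) rfl (Or.inl ⟨rfl, rfl, k _ s3⟩) (Or.inl (by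
    funext p
    rw [signedPerm_apply, inv_one, Equiv.Perm.one_apply]
    split_ifs with q
    · rw [h p fun r => k p r q, neg_zero]
    · rfl)) i
  rw [Equiv.Perm.one_apply, H7.B4.sg,
    if_pos ((Fx3_mem e (Finset.mem_insert_self _ _)).2 (Finset.mem_singleton_self _))] at this
  exact Fx3_neg h2 this

/-- a swap of the first two points -/
theorem Fx3_swap (h2 : (2 : F) ≠ 0) {w : leechLattice} (hw : B4.Tw w) {a : GolayPt → F}
    (ha : a none + a (some 0) = 0)
    (hf : ∀ γ ∈ SS, Cu ((γ : Co0) • w) w → Mp γ a a) {σ : Equiv.Perm GolayPt} (hσ : σ ∈ M24)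
    {c : Finset GolayPt} (hc : c ∈ code) (c1 : none ∉ c) (c2 : some 0 ∉ c) (c3 : some 1 ∈ c) {k : GolayPt}
    (c4 : k ∈ c) (s1 : σ none = some 0) (s2 : σ (some 0) = none) (s3 : σ (some 1) = some 1) (s4 : σ k = k)
    (e : signedPerm σ c w = (vU : GolayPt → ℤ) - w) :
    a none = 0 ∧ a (some 0) = 0 ∧ a (some 1) = 0 ∧ a k = 0 := by
  have h := Fx3_key hw hf hσ hc c1 c2 s3 (Or.inr ⟨s1, s2, c3⟩) (Or.inr e)
  have a1 := h none
  have a2 := h (some 1)
  have a3 := h k
  rw [s1, H7.B4.sg, if_neg c2] at a1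
  rw [s3, H7.B4.sg, if_pos c3] at a2
  rw [s4, H7.B4.sg, if_pos c4] at a3
  have a0 : a none = 0 := Fx3_neg h2 (by linear_combination ha - a1)
  exact ⟨a0, by rwa [a0, zero_add] at ha, Fx3_neg h2 a2, Fx3_neg h2 a3⟩

theorem Fx3_n1 : (none : GolayPt) ≠ some 1 := by decide
theorem Fx3_01 : (some 0 : GolayPt) ≠ some 1 := by decide

theorem Fx3_hub (h2 : (2 : F) ≠ 0) {w : leechLattice} (hw : B4.Tw w) {a : GolayPt → F}
    (ha : a none + a (some 0) = 0) (hf : ∀ γ ∈ SS, Cu ((γ : Co0) • w) w → Mp γ a a) {k : GolayPt}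
    (k1 : k ≠ none) (k2 : k ≠ some 0) {t : ℤ} (e : (w : GolayPt → ℤ) = v44 none k 1 t) : a = 0 := by
  obtain ⟨σ, hσ, s1, s2, s3, s4⟩ : ∃ σ ∈ M24, σ none = some 0 ∧ σ (some 0) = none ∧
      σ (some 1) = some 1 ∧ σ k = k := by
    by_cases h : k = some 1
    · obtain ⟨σ, hσ, a, b, c⟩ := M24_trans3 Sh.ne0 Fx3_n1 Fx3_01 Sh.ne0.symm Fx3_01 Fx3_n1
      exact ⟨σ, hσ, a, b, c, h ▸ c⟩
    · obtain ⟨σ, hσ, q⟩ := M24_trans (by norm_num) _ _
        (injective_vec4 Sh.ne0 Fx3_n1 k1.symm Fx3_01 k2.symm (Ne.symm h))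
        (injective_vec4 Sh.ne0.symm Fx3_01 k2.symm Fx3_n1 k1.symm (Ne.symm h))
      exact ⟨σ, hσ, q 0, q 1, q 2, q 3⟩
  obtain ⟨c, hc, q⟩ := exists_code_inter_eq_of_card_lt {none, some 0, some 1, k} {some 1, k}
    (by intro x; simp only [Finset.mem_insert, Finset.mem_singleton]; tauto)
    (Finset.card_le_four.trans_lt (by norm_num))
  have c1 : none ∉ c := fun r => by
    have := (Fx3_mem q (by simp)).1 r
    simp only [Finset.mem_insert, Finset.mem_singleton] at this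
    exact this.elim Fx3_n1 k1.symm
  have c2 : some 0 ∉ c := fun r => by
    have := (Fx3_mem q (by simp)).1 r
    simp only [Finset.mem_insert, Finset.mem_singleton] at this
    exact this.elim Fx3_01 k2.symm
  have c4 : k ∈ c := (Fx3_mem q (by simp)).2 (by simp)
  obtain ⟨a1, a2, a3, a4⟩ := Fx3_swap h2 hw ha hf hσ hc c1 c2 ((Fx3_mem q (by simp)).2 (by simp)) c4
    s1 s2 s3 s4 (by rw [e, signedPerm_v44, s1, s4, if_neg c2, if_pos c4]; exact Fx3_sub t)
  funext i
  by_cases hi : i ∈ ({none, some 0, some 1, k} : Finset GolayPt)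
  · simp only [Finset.mem_insert, Finset.mem_singleton] at hi
    rcases hi with rfl | rfl | rfl | rfl <;> assumption
  · obtain ⟨d, hd, r⟩ := exists_code_inter_eq_of_card_lt (insert i {none, some 0, some 1, k}) {i}
      (by simp) (Finset.card_le_five.trans_lt (by norm_num))
    refine Fx3_off h2 hw hf hd r hi (by simp) (by simp) (by simp) fun p hp => ?_
    simp only [Finset.mem_insert, Finset.mem_singleton, not_or] at hp
    rw [e, v44_apply, if_neg hp.1, if_neg hp.2.2.2, add_zero]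

theorem Fx3_even {s t : Finset GolayPt} (hs : 2 ∣ s.card) (ht : 2 ∣ t.card) : 2 ∣ (s ∆ t).card := by
  have := H16.card_symmDiff_add s t
  omega

theorem Fx3_hx (h2 : (2 : F) ≠ 0) {w : leechLattice} (hw : Hx w) (hX : Ad vX w) {a : GolayPt → F}
    (ha : a none + a (some 0) = 0) (hf : ∀ γ ∈ SS, Cu ((γ : Co0) • w) w → Mp γ a a) : a = 0 := by
  obtain ⟨o, ho, s, hs, s2, e, o1, o2, s1, s0⟩ := Sh.hx_shape hw
  have o8 : o.card = 8 := ho.2
  have o3 : some 1 ∈ o := by
    by_contra c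
    rw [Ad, coe_X, dotInt_v44, hw.2, e, oct_apply, if_neg c] at hX
    omega
  have key : ∀ i ∈ o, i ∉ ({none, some 0, some 1} : Finset GolayPt) →
      a none = 0 ∧ a (some 0) = 0 ∧ a (some 1) = 0 ∧ a i = 0 := fun i hi q => by
    obtain ⟨j, hj, r⟩ := Finset.exists_mem_notMem_of_card_lt_card
      (s := ({none, some 0, some 1, i} : Finset GolayPt)) (t := o) (Finset.card_le_four.trans_lt (by omega))
    simp only [Finset.mem_insert, Finset.mem_singleton, not_or] at q r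
    obtain ⟨σ, hσ, so, k⟩ := M24_trans_octad_flag ho ho _ _
      (injective_vec5 Sh.ne0 Fx3_n1 (Ne.symm q.1) (Ne.symm r.1) Fx3_01 (Ne.symm q.2.1) (Ne.symm r.2.1)
        (Ne.symm q.2.2) (Ne.symm r.2.2.1) (Ne.symm r.2.2.2))
      (injective_vec5 Sh.ne0.symm Fx3_01 (Ne.symm q.2.1) (Ne.symm r.2.1) Fx3_n1 (Ne.symm q.1) (Ne.symm r.1)
        (Ne.symm q.2.2) (Ne.symm r.2.2.1) (Ne.symm r.2.2.2))
      (fun n => by fin_cases n <;> assumption) (fun n => by fin_cases n <;> assumption)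
    have k0 : σ none = some 0 := k 0
    have k1 : σ (some 0) = none := k 1
    have k2 : σ (some 1) = some 1 := k 2
    have k3 : σ i = i := k 3
    have ms : ∀ {x y}, σ x = y → (y ∈ σ • s ↔ x ∈ s) := fun e => e ▸ Finset.smul_mem_smul_finset_iff σ
    have hp : ((o \ {none, some 0}) ∆ s) ∆ (σ • s) ⊆ o :=
      symmDiff_le_sup.trans (sup_le (symmDiff_le_sup.trans (sup_le Finset.sdiff_subset hs))
        (so ▸ Finset.smul_finset_subset_smul_finset hs))
    obtain ⟨c, hc, q'⟩ := exists_code_inter_eq_octad ho o _ subset_rfl hp (by omega) (by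
      rw [Finset.inter_eq_right.2 hp]
      refine Fx3_even (Fx3_even ?_ s2) (by rwa [Finset.card_smul_finset])
      rw [Finset.card_sdiff_of_subset (by
        intro x; simp only [Finset.mem_insert, Finset.mem_singleton]; rintro (rfl | rfl) <;> assumption),
        Finset.card_pair Sh.ne0, o8]
      norm_num)
    have mc : ∀ x ∈ o, (x ∈ c ↔ ((x = none ∨ x = some 0) ↔ ¬ (x ∈ s ↔ x ∈ σ • s))) := fun x hx => by
      rw [Fx3_mem q' hx]
      simp only [Finset.mem_symmDiff, Finset.mem_sdiff, Finset.mem_insert, Finset.mem_singleton, hx, true_and]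
      generalize (x = none ∨ x = some 0) = P
      generalize (x ∈ s) = Q
      generalize (x ∈ σ • s) = R
      tauto
    refine Fx3_swap h2 hw.1 ha hf hσ hc ?_ ?_ ?_ ?_ k0 k1 k2 k3 ?_
    · rw [mc _ o1, ms k1]; simp [s1, s0]
    · rw [mc _ o2, ms k0]; simp [s1, s0]
    · rw [mc _ o3, ms k2]; simp [Fx3_01.symm]
    · rw [mc _ hi, ms k3]; simp [q.1, q.2.1]
    · rw [e, signedPerm_oct, so]
      funext p
      rw [Pi.sub_apply, oct_apply, oct_apply, H7.B4.U_apply]
      by_cases h : p ∈ o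
      · have := mc p h
        rw [if_pos h, if_pos h]
        by_cases p1 : p = none ∨ p = some 0
        · have p2 : p ∉ s := by rcases p1 with rfl | rfl <;> assumption
          rw [if_pos p1, if_neg p2, if_neg]
          · norm_num
          · rw [Finset.mem_symmDiff, this]; clear * - p1 p2; tauto
        · rw [if_neg p1]
          by_cases p2 : p ∈ s
          · rw [if_pos p2, if_neg]
            · norm_num
            · rw [Finset.mem_symmDiff, this]; clear * - p1 p2; tauto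
          · rw [if_neg p2, if_pos]
            · norm_num
            · rw [Finset.mem_symmDiff, this]; clear * - p1 p2; tauto
      · rw [if_neg h, if_neg h, if_neg (by rintro (rfl | rfl) <;> contradiction)]
        norm_num
  obtain ⟨j, hj, r⟩ := Finset.exists_mem_notMem_of_card_lt_card
    (s := ({none, some 0, some 1} : Finset GolayPt)) (t := o) (Finset.card_le_three.trans_lt (by omega))
  obtain ⟨a1, a2, a3, -⟩ := key j hj r
  funext i
  by_cases hi : i ∈ o
  · by_cases q : i ∈ ({none, some 0, some 1} : Finset GolayPt)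
    · simp only [Finset.mem_insert, Finset.mem_singleton] at q
      rcases q with rfl | rfl | rfl <;> assumption
    · exact (key i hi q).2.2.2
  · obtain ⟨d, hd, q⟩ := exists_code_inter_eq_octad ho (insert i o) {i} (Finset.subset_insert _ _) (by simp)
      (by rw [Finset.card_insert_of_notMem hi]; omega) (by rw [Finset.inter_singleton_of_notMem hi]; simp)
    exact Fx3_off h2 hw.1 hf hd q hi o1 o2 o3 fun p hp => by rw [e, oct_apply, if_neg hp]

theorem tri_fix (h2 : (2 : F) ≠ 0) {d : leechLattice} (hd : B4.Tw d) (hX : Ad vX d) (hY : Ad vY d)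
    {a : GolayPt → F} (ha : a none + a (some 0) = 0)
    (hf : ∀ γ ∈ SS, Cu ((γ : Co0) • d) d → Mp γ a a) : a = 0 := by
  obtain ⟨w, hw, e, h⟩ := tw_shape hd
  have hf' : ∀ γ ∈ SS, Cu ((γ : Co0) • w) w → Mp γ a a := fun γ hγ c =>
    hf γ hγ (((e.smul γ).trans c).trans e.symm)
  have sy : ∀ {u v}, Ad u v → Ad v u := fun h => by rwa [Ad, dotInt_comm]
  have hX' : Ad vX w := sy (Ad.congr tw_X e (sy hX))
  have hY' : Ad vY w := sy (Ad.congr tw_Y e (sy hY))
  rcases h with ⟨k, k1, k2, t, -, q⟩ | h | ⟨c, -, c1, -, q⟩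
  · exact Fx3_hub h2 hw ha hf' k1 k2 q
  · exact Fx3_hx h2 h hX' ha hf'
  · rw [Ad, coe_X, dotInt_v44, q, odd_apply, odd_apply, if_pos rfl, if_pos c1, if_neg Fx3_n1.symm] at hX'
    rw [Ad, coe_Y, dotInt_v44, q, odd_apply, odd_apply, if_pos rfl, if_pos c1, if_neg Fx3_n1.symm] at hY'
    split_ifs at hX' hY' <;> omega

end H95.B9
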