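import Mathlib
import Cfsg.Agent.Lib.B59.GrA

set_option autoImplicit false

namespace H95.B9

open Cfsg Subgroup Module H15 H16 H48.BR H95.B4

/-- the vectors `(4, 0, ±4)` -/
def GrB_Hub (w : leechLattice) : Prop :=
  ∃ k, k ≠ none ∧ k ≠ some 0 ∧ ∃ t : ℤ, (t = 1 ∨ t = -1) ∧ (w : GolayPt → ℤ) = v44 none k 1 t

theorem eqns_GrB : True := by
  have := @GrB_Hub.eq_1
  trivial

theorem GrB_symm {a b : leechLattice} (h : Ad a b) : Ad b a := by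
  unfold Ad at h ⊢
  rwa [dotInt_comm]

theorem GrB_ex {k : GolayPt} (h1 : k ≠ none) (h2 : k ≠ some 0) {t : ℤ} (ht : t = 1 ∨ t = -1) :
    ∃ w : leechLattice, GrB_Hub w ∧ ∀ a : leechLattice,
      (16 : ℤ) ∣ 4 * (a : GolayPt → ℤ) none + 4 * t * (a : GolayPt → ℤ) k → Ad w a := by
  refine ⟨⟨v44 none k 1 t, v44_mem _ _ (Or.inl rfl) ht⟩, ⟨k, h1, h2, t, ht, rfl⟩, fun a ha => ?_⟩
  unfold Ad
  rwa [dotInt_v44, mul_one]

theorem GrB_tw {w : leechLattice} (h : GrB_Hub w) : B4.Tw w := by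
  obtain ⟨k, h1, h2, t, ht, e⟩ := h
  refine ⟨by rw [e]; exact sqNorm_v44 h1.symm (Or.inl rfl) ht, ?_⟩
  rw [Sh.dot_U, e, v44_apply, v44_apply, if_pos rfl, if_neg h1.symm, if_neg Sh.ne0.symm, if_neg h2.symm]
  rfl

theorem GrB_hh {w w' : leechLattice} (h : GrB_Hub w) (h' : GrB_Hub w') : Ad w w' := by
  obtain ⟨k, h1, -, t, ht, e⟩ := h
  obtain ⟨k', k1, -, t', ht', e'⟩ := h'
  unfold Ad
  rw [e, e', dotInt_v44, v44_apply, v44_apply, if_pos rfl, if_neg k1.symm, if_neg h1]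
  split_ifs
  · rcases ht with rfl | rfl <;> rcases ht' with rfl | rfl <;> decide
  · rcases ht with rfl | rfl <;> decide

theorem GrB_X : GrB_Hub vX := ⟨some 1, by decide, by decide, 1, Or.inl rfl, coe_X⟩

theorem GrB_Y : GrB_Hub vY := ⟨some 1, by decide, by decide, -1, Or.inr rfl, coe_Y⟩

theorem GrB_out {s : Finset GolayPt} (h : 2 < s.card) : ∃ k ∈ s, k ≠ none ∧ k ≠ some 0 := by
  by_contra n
  push Not at n
  have : s ⊆ {none, some 0} := fun k hk => by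
    by_cases e : k = none
    · simp [e]
    · simp [n k hk e]
  have := (Finset.card_le_card this).trans Finset.card_le_two
  omega

theorem GrB_hx {o s : Finset GolayPt} (h1 : none ∈ o) (h2 : none ∉ s) {k : GolayPt} (hk : k ∈ o) {t : ℤ}
    (ht : t = 1 ∨ t = -1) :
    (16 : ℤ) ∣ 4 * H16.sgn s (rep 0 o) none + 4 * t * H16.sgn s (rep 0 o) k := by
  rw [oct_apply, oct_apply, if_pos h1, if_neg h2, if_pos hk]
  split_ifs <;> rcases ht with rfl | rfl <;> decide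

theorem GrB_odd {c : Finset GolayPt} (h1 : none ∈ c) {k : GolayPt} (hk : k ≠ none) :
    (16 : ℤ) ∣ 4 * H16.sgn c (odd3 none) none + 4 * (if k ∈ c then -1 else 1) * H16.sgn c (odd3 none) k := by
  rw [odd_apply, odd_apply, if_pos rfl, if_pos h1, if_neg hk]
  split_ifs <;> decide

theorem GrB_pm (p : Prop) [Decidable p] : (if p then (-1 : ℤ) else 1) = 1 ∨ (if p then (-1 : ℤ) else 1) = -1 := by
  split_ifs <;> simp

theorem GrB_one {a : leechLattice} (ha : B4.Tw a) : ∃ m, GrB_Hub m ∧ Ad m a := by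
  obtain ⟨a', -, e, h⟩ := tw_shape ha
  suffices ∃ m, GrB_Hub m ∧ Ad m a' by
    obtain ⟨m, h1, h2⟩ := this
    exact ⟨m, h1, GrB_symm (Ad.congr (GrB_tw h1) e.symm (GrB_symm h2))⟩
  rcases h with h | h | ⟨c, -, c1, -, h⟩
  · exact ⟨vX, GrB_X, GrB_hh GrB_X h⟩
  · obtain ⟨o, ho, s, -, -, e, o1, -, s1, -⟩ := Sh.hx_shape h
    obtain ⟨k, hk, k1, k2⟩ := GrB_out (s := o) (by rw [(mem_octads_iff.1 ho).2]; decide)
    obtain ⟨m, m1, m2⟩ := GrB_ex k1 k2 (Or.inl rfl)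
    exact ⟨m, m1, m2 _ (by rw [e]; exact GrB_hx o1 s1 hk (Or.inl rfl))⟩
  · obtain ⟨m, m1, m2⟩ := GrB_ex (k := some 1) (by decide) (by decide) (GrB_pm (some 1 ∈ c))
    exact ⟨m, m1, m2 _ (by rw [h]; exact GrB_odd c1 (by decide))⟩

theorem GrB_mix {a b : leechLattice} (ha : Hx a) {c : Finset GolayPt} (c1 : none ∈ c)
    (hb : (b : GolayPt → ℤ) = H16.sgn c (odd3 none)) : ∃ m, GrB_Hub m ∧ Ad m a ∧ Ad m b := by
  obtain ⟨o, ho, s, -, -, e, o1, -, s1, -⟩ := Sh.hx_shape ha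
  obtain ⟨k, hk, k1, k2⟩ := GrB_out (s := o) (by rw [(mem_octads_iff.1 ho).2]; decide)
  obtain ⟨m, m1, m2⟩ := GrB_ex k1 k2 (GrB_pm (k ∈ c))
  exact ⟨m, m1, m2 _ (by rw [e]; exact GrB_hx o1 s1 hk (GrB_pm _)), m2 _ (by rw [hb]; exact GrB_odd c1 k1)⟩

theorem GrB_xx {a b : leechLattice} (ha : Hx a) (hb : Hx b) (h : Ad a b) :
    ∃ m, GrB_Hub m ∧ Ad m a ∧ Ad m b := by
  obtain ⟨o, -, s, -, -, e, o1, o2, s1, s2⟩ := Sh.hx_shape ha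
  obtain ⟨o', -, s', -, -, e', p1, p2, t1, t2⟩ := Sh.hx_shape hb
  by_cases n : ∃ k, k ∈ o ∧ k ∈ o' ∧ k ≠ none ∧ k ≠ some 0
  · obtain ⟨k, a1, a2, k1, k2⟩ := n
    obtain ⟨m, m1, m2⟩ := GrB_ex k1 k2 (Or.inl rfl)
    exact ⟨m, m1, m2 _ (by rw [e]; exact GrB_hx o1 s1 a1 (Or.inl rfl)),
      m2 _ (by rw [e']; exact GrB_hx p1 t1 a2 (Or.inl rfl))⟩
  · exfalso
    unfold Ad dotInt at h
    rw [e, e', Fintype.sum_eq_add none (some 0) Sh.ne0 (fun k hk => by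
      rw [oct_apply, oct_apply]
      by_cases a1 : k ∈ o
      · rw [if_neg (fun a2 : k ∈ o' => n ⟨k, a1, a2, hk.1, hk.2⟩), mul_zero]
      · rw [if_neg a1, zero_mul])] at h
    simp only [oct_apply, if_pos o1, if_pos o2, if_pos p1, if_pos p2, if_neg s1, if_neg s2, if_neg t1,
      if_neg t2] at h
    revert h
    decide

theorem GrB_oo {a b : leechLattice} {c d : Finset GolayPt} (hc : c ∈ code) (hd : d ∈ code) (c1 : none ∈ c)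
    (d1 : none ∈ d) (ha : (a : GolayPt → ℤ) = H16.sgn c (odd3 none))
    (hb : (b : GolayPt → ℤ) = H16.sgn d (odd3 none)) : ∃ m, GrB_Hub m ∧ Ad m a ∧ Ad m b := by
  have h1 := card_of_mem_codeSets (compl_mem_codeSets (symmDiff_mem_codeSets hc hd))
  have h2 : none ∈ (symmDiff c d)ᶜ := by simp [Finset.mem_symmDiff, c1, d1]
  have h3 := Finset.card_pos.2 ⟨_, h2⟩
  obtain ⟨k, hk, k1, k2⟩ := GrB_out (s := (symmDiff c d)ᶜ) (by omega)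
  have h4 : k ∈ c ↔ k ∈ d := by
    rw [Finset.mem_compl, Finset.mem_symmDiff] at hk
    tauto
  obtain ⟨m, m1, m2⟩ := GrB_ex k1 k2 (GrB_pm (k ∈ c))
  refine ⟨m, m1, m2 _ (by rw [ha]; exact GrB_odd c1 k1), m2 _ ?_⟩
  rw [hb, if_congr h4 rfl rfl]
  exact GrB_odd d1 k1

theorem GrB_two {a b : leechLattice} (ha : B4.Tw a) (hb : B4.Tw b) (h : Ad a b) :
    ∃ m, GrB_Hub m ∧ Ad m a ∧ Ad m b := by
  obtain ⟨a', a1, ea, sa⟩ := tw_shape ha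
  obtain ⟨b', b1, eb, sb⟩ := tw_shape hb
  have h' : Ad a' b' := GrB_symm (Ad.congr a1 eb (GrB_symm (Ad.congr hb ea h)))
  suffices ∃ m, GrB_Hub m ∧ Ad m a' ∧ Ad m b' by
    obtain ⟨m, h1, h2, h3⟩ := this
    exact ⟨m, h1, GrB_symm (Ad.congr (GrB_tw h1) ea.symm (GrB_symm h2)),
      GrB_symm (Ad.congr (GrB_tw h1) eb.symm (GrB_symm h3))⟩
  rcases sa with sa | sa | ⟨c, hc, c1, -, sa⟩
  · obtain ⟨m, m1, m2⟩ := GrB_one b1
    exact ⟨m, m1, GrB_hh m1 sa, m2⟩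
  · rcases sb with sb | sb | ⟨d, -, d1, -, sb⟩
    · obtain ⟨m, m1, m2⟩ := GrB_one a1
      exact ⟨m, m1, m2, GrB_hh m1 sb⟩
    · exact GrB_xx sa sb h'
    · exact GrB_mix sa d1 sb
  · rcases sb with sb | sb | ⟨d, hd, d1, -, sb⟩
    · obtain ⟨m, m1, m2⟩ := GrB_one a1
      exact ⟨m, m1, m2, GrB_hh m1 sb⟩
    · obtain ⟨m, m1, m2, m3⟩ := GrB_mix sb c1 sa
      exact ⟨m, m1, m3, m2⟩
    · exact GrB_oo hc hd c1 d1 sa sb

theorem gr_g1 {a : leechLattice} (ha : B4.Tw a) : ∃ m, B4.Tw m ∧ Ad m a ∧ Ad m vX ∧ Ad m vY := by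
  obtain ⟨m, m1, m2⟩ := GrB_one ha
  exact ⟨m, GrB_tw m1, m2, GrB_hh m1 GrB_X, GrB_hh m1 GrB_Y⟩

theorem gr_g2 {b m m' : leechLattice} (hb : B4.Tw b) (hm : B4.Tw m) (hm' : B4.Tw m') (n : ¬ Ad vX b)
    (h1 : Ad m vX) (h2 : Ad m b) (h3 : Ad m' vX) (h4 : Ad m' b) :
    ∃ k k', B4.Tw k ∧ B4.Tw k' ∧ Ad k vX ∧ Ad k b ∧ Ad k' vX ∧ Ad k' b ∧ Ad k m ∧ Ad k' m' ∧ Ad k k' := by
  obtain ⟨k, k1, k2, k3⟩ := GrB_two hm hb h2
  obtain ⟨k', l1, l2, l3⟩ := GrB_two hm' hb h4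
  exact ⟨k, k', GrB_tw k1, GrB_tw l1, GrB_hh k1 GrB_X, k3, GrB_hh l1 GrB_X, l3, k2, l2, GrB_hh k1 l1⟩

theorem gr_co2 : Gr (Stab vU) B4.Tw Cu Ad vX vY where
  p0 := tw_X
  p1 := tw_Y
  ps g _ h := h.smul g
  refl := Cu.refl
  symm _ _ := Cu.symm
  trans _ _ _ := Cu.trans
  rs g _ _ h := h.smul g
  ads g a b h := by
    unfold Ad at h ⊢
    exact (dotInt_co0 (g : Co0) a b).symm ▸ h
  adr _ _ _ hb e h := Ad.congr hb e h
  asy _ _ := GrB_symm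
  arf a h := by
    unfold Ad
    rw [dotInt_self, h.1]
    decide
  tr a h := by
    obtain ⟨g, g1, g2⟩ := co2_trans (x := vX) (y := a) tw_X.1 h.1 (tw_X.2.trans h.2.symm)
    exact ⟨⟨g, g1⟩, g2⟩
  tr2 _ _ := gr_tr2
  g1 _ := gr_g1
  g2 _ _ _ := gr_g2

end H95.B9
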