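import Mathlib
import Cfsg.Agent.Lib.B59.Ga

/-! Gluing sections along a graph whose triangles generate all cycles. -/

set_option autoImplicit false

namespace H95.B9

open Cfsg Subgroup Module H15 H16 H48.BR H95.B4

variable {F : Type*} [Field F] {G E : Type*} [Group G] [Group E] {V : Type*} [AddCommGroup V] [Module F V]
  {π : E →* G} {ρ : Representation F G V} {ι : V → E} {H K : Subgroup G} {t t' : G → E}

variable {Γ : Type*} [Group Γ] {Ω : Type*} [MulAction Γ Ω] {P : Ω → Prop} {r ad : Ω → Ω → Prop} {a₀ a₁ : Ω}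

theorem Gr.gsl_common (g : Gr Γ P r ad a₀ a₁) {a b : Ω} (ha : P a) (hb : P b) (h : ad a b) :
    ∃ m, P m ∧ ad m a ∧ ad m b ∧ ad m a₀ := by
  rcases g.tr2 a b ha hb h with e | ⟨γ, e0, e1⟩
  · obtain ⟨m, hm, h1, h2, -⟩ := g.g1 a ha
    exact ⟨m, hm, h1, g.asy _ _ (g.adr a b m hm e (g.asy _ _ h1)), h2⟩
  · obtain ⟨m, hm, h1, h2, h3⟩ := g.g1 _ (g.ps γ⁻¹ _ g.p0)
    have pm := g.ps γ m hm
    refine ⟨γ • m, pm, g.asy _ _ (g.adr _ _ _ pm e0 (g.asy _ _ (g.ads γ _ _ h2))),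
      g.asy _ _ (g.adr _ _ _ pm e1 (g.asy _ _ (g.ads γ _ _ h3))), ?_⟩
    have := g.ads γ _ _ h1
    rwa [smul_inv_smul] at this

theorem Gr.potential (g : Gr Γ P r ad a₀ a₁) {c : Ω → Ω → V}
    (tri : ∀ a b d, P a → P b → P d → ad a b → ad b d → ad a d → c a b + c b d = c a d) :
    ∃ β : Ω → V, ∀ a b, P a → P b → ad a b → c a b = β a - β b := by
  classical
  have step : ∀ a m k, P a → P m → P k → ad m a → ad m a₀ → ad k a → ad k a₀ → ad k m →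
      c a m + c m a₀ = c a k + c k a₀ := fun a m k ha hm hk h1 h2 h3 h4 h5 => by
    rw [← tri a m k ha hm hk (g.asy _ _ h1) (g.asy _ _ h5) (g.asy _ _ h3),
      ← tri m k a₀ hm hk g.p0 (g.asy _ _ h5) h4 h2, add_assoc]
  have wd : ∀ a m m', P a → P m → P m' → ad m a → ad m a₀ → ad m' a → ad m' a₀ →
      c a m + c m a₀ = c a m' + c m' a₀ := fun a m m' ha hm hm' h1 h2 h3 h4 => by
    by_cases h : ad a₀ a
    · rw [tri a m a₀ ha hm g.p0 (g.asy _ _ h1) h2 (g.asy _ _ h),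
        tri a m' a₀ ha hm' g.p0 (g.asy _ _ h3) h4 (g.asy _ _ h)]
    · obtain ⟨k, k', pk, pk', k0, ka, k0', ka', km, km', kk⟩ := g.g2 a m m' ha hm hm' h h2 h1 h4 h3
      rw [step a m k ha hm pk h1 h2 ka k0 km, step a m' k' ha hm' pk' h3 h4 ka' k0' km',
        step a k' k ha pk' pk ka' k0' ka k0 kk]
  have : ∀ a, ∃ v, P a → ∀ m, P m → ad m a → ad m a₀ → v = c a m + c m a₀ := fun a => by
    by_cases ha : P a
    · obtain ⟨m, hm, h1, h2, -⟩ := g.g1 a ha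
      exact ⟨c a m + c m a₀, fun _ m' hm' h3 h4 => wd a m m' ha hm hm' h1 h2 h3 h4⟩
    · exact ⟨0, fun h => absurd h ha⟩
  choose β hβ using this
  refine ⟨β, fun a b ha hb h => ?_⟩
  obtain ⟨m, hm, h1, h2, h3⟩ := g.gsl_common ha hb h
  rw [hβ a ha m hm h1 h3, hβ b hb m hm h2 h3, ← tri a b m ha hb hm h (g.asy _ _ h2) (g.asy _ _ h1)]
  abel

theorem Gr.gsl_rs' (g : Gr Γ P r ad a₀ a₁) (γ : Γ) {a b : Ω} (h : r (γ • a) (γ • b)) : r a b := by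
  have := g.rs γ⁻¹ _ _ h
  rwa [inv_smul_smul, inv_smul_smul] at this

theorem Gr.gsl_ads' (g : Gr Γ P r ad a₀ a₁) (γ : Γ) {a b : Ω} (h : ad (γ • a) (γ • b)) : ad a b := by
  have := g.ads γ⁻¹ _ _ h
  rwa [inv_smul_smul, inv_smul_smul] at this

theorem Gr.gsl_ad2 (g : Gr Γ P r ad a₀ a₁) {a b a' b' : Ω} (ha : P a') (hb : P b) (h1 : r a a') (h2 : r b b')
    (h : ad a b) : ad a' b' :=
  g.asy _ _ (g.adr _ _ _ ha h2 (g.asy _ _ (g.adr _ _ _ hb h1 h)))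

/-- the cocycle `κ` on the vertices -/
theorem gsl_k (X : Xt π ρ ι) {φ : G →* Γ} (hφ : Function.Surjective φ) (g : Gr Γ P r ad a₀ a₁)
    (hH : ∀ c, c ∈ H ↔ r (φ c • a₀) a₀) (sp : Spl π H) : ∃ k : E → Ω → V,
      (∀ e e' a, P a → k (e * e') a = k e (φ (π e') • a) + ρ (π e) (k e' a)) ∧ (∀ v a, k (ι v) a = v) ∧
        ∀ e a b, P a → P b → r a b → k e a = k e b := by
  obtain ⟨κ, k1, k2⟩ := exists_kappa X sp
  have : ∀ a, ∃ x : G ⧸ H, P a → ∀ c, r (φ c • a₀) a → x = (c : G ⧸ H) := fun a => by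
    by_cases ha : P a
    · obtain ⟨γ, rfl⟩ := g.tr a ha
      obtain ⟨c, rfl⟩ := hφ γ
      refine ⟨(c : G ⧸ H), fun _ c' h => QuotientGroup.eq.2 ((hH _).2 (g.gsl_rs' (φ c) ?_))⟩
      rwa [← mul_smul, ← map_mul, mul_inv_cancel_left]
    · exact ⟨((1 : G) : G ⧸ H), fun h => absurd h ha⟩
  choose cos hc using this
  have ex : ∀ a, P a → ∃ c, φ c • a₀ = a := fun a ha => by
    obtain ⟨γ, e⟩ := g.tr a ha
    obtain ⟨c, rfl⟩ := hφ γ
    exact ⟨c, e⟩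
  refine ⟨fun e a => κ e (cos a), fun e e' a ha => ?_, fun v a => k2 v _, fun e a b ha hb h => ?_⟩
  · obtain ⟨c, rfl⟩ := ex a ha
    simp only
    rw [k1, hc _ ha c (g.refl _), hc _ (g.ps _ _ ha) (π e' * c) (by rw [map_mul, mul_smul]; exact g.refl _)]
    rfl
  · obtain ⟨c, rfl⟩ := ex a ha
    simp only
    rw [hc _ ha c (g.refl _), hc _ hb c h]

theorem gsl (X : Xt π ρ ι) {φ : G →* Γ} (hφ : Function.Surjective φ) (g : Gr Γ P r ad a₀ a₁) {S : Subgroup G}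
    (hH : ∀ c, c ∈ H ↔ r (φ c • a₀) a₀) (hS : ∀ c, c ∈ S ↔ r (φ c • a₀) a₀ ∧ r (φ c • a₁) a₁)
    (sp : Spl π H) (ho : Ho ρ S)
    (tri : ∀ d, P d → ad a₀ d → ad a₁ d → ∀ v, (∀ c ∈ S, r (φ c • d) d → ρ c v = v) → v = 0) :
    Spl π ⊤ := by
  classical
  obtain ⟨k, k1, k2, k3⟩ := gsl_k X hφ g hH sp
  have p0 := g.p0
  have p1 := g.p1
  have ρm : ∀ e e' v, ρ (π (e * e')) v = ρ (π e) (ρ (π e') v) := fun e e' v => by
    rw [map_mul, map_mul]; rfl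
  have sm : ∀ (e e' : E) (a : Ω), φ (π (e * e')) • a = φ (π e) • φ (π e') • a := fun e e' a => by
    rw [map_mul, map_mul, mul_smul]
  have su : ∀ γ : Γ, ∃ e, φ (π e) = γ := fun γ => by
    obtain ⟨c, rfl⟩ := hφ γ
    obtain ⟨e, rfl⟩ := X.surj c
    exact ⟨e, rfl⟩
  have hD : ∀ e e', π e = π e' → k e a₀ - k e a₁ = k e' a₀ - k e' a₁ := fun e e' h => by
    obtain ⟨v, rfl⟩ := X.exists_eq h
    rw [k1 _ _ _ p0, k1 _ _ _ p1, k2, k2, X.proj, map_one]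
    simp
  -- the value on the base edge
  obtain ⟨c₀, hc₀⟩ : ∃ c₀, ∀ e, π e ∈ S → ρ (π e) c₀ + (k e a₀ - k e a₁) = c₀ := by
    choose σ hσ using X.surj
    obtain ⟨c₀, h⟩ := ho (fun s => k (σ s) a₀ - k (σ s) a₁) fun a ha b hb => by
      obtain ⟨b0, b1⟩ := (hS b).1 hb
      simp only
      rw [hD (σ (a * b)) (σ a * σ b) (by rw [map_mul, hσ, hσ, hσ]), k1 _ _ _ p0, k1 _ _ _ p1, hσ, hσ,
        k3 _ _ _ (g.ps _ _ p0) p0 b0, k3 _ _ _ (g.ps _ _ p1) p1 b1, map_sub]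
      abel
    refine ⟨c₀, fun e he => ?_⟩
    have := h _ he
    rw [hD e (σ (π e)) (hσ _).symm, this]
    abel
  have wd : ∀ e e', r (φ (π e') • a₀) (φ (π e) • a₀) → r (φ (π e') • a₁) (φ (π e) • a₁) →
      ρ (π e') c₀ + (k e' a₀ - k e' a₁) = ρ (π e) c₀ + (k e a₀ - k e a₁) := fun e e' h0 h1 => by
    obtain ⟨s, rfl⟩ : ∃ s, e' = e * s := ⟨e⁻¹ * e', by rw [mul_inv_cancel_left]⟩
    rw [sm] at h0 h1
    have s0 := g.gsl_rs' _ h0
    have s1 := g.gsl_rs' _ h1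
    rw [k1 _ _ _ p0, k1 _ _ _ p1, k3 _ _ _ (g.ps _ _ p0) p0 s0, k3 _ _ _ (g.ps _ _ p1) p1 s1, ρm]
    conv_rhs => rw [← hc₀ s ((hS _).2 ⟨s0, s1⟩)]
    rw [map_add, map_sub]
    abel
  have : ∀ a b, ∃ v, (r a b → v = 0) ∧ (¬ r a b → ∀ e, r (φ (π e) • a₀) a → r (φ (π e) • a₁) b →
      v = ρ (π e) c₀ + (k e a₀ - k e a₁)) := fun a b => by
    by_cases h : r a b
    · exact ⟨0, fun _ => rfl, fun h' => absurd h h'⟩
    by_cases h' : ∃ e, r (φ (π e) • a₀) a ∧ r (φ (π e) • a₁) b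
    · obtain ⟨e, e0, e1⟩ := h'
      exact ⟨_, fun h' => absurd h' h, fun _ e' f0 f1 =>
        wd e' e (g.trans _ _ _ e0 (g.symm _ _ f0)) (g.trans _ _ _ e1 (g.symm _ _ f1))⟩
    · exact ⟨0, fun _ => rfl, fun _ e f0 f1 => absurd ⟨e, f0, f1⟩ h'⟩
  choose c c1 c2 using this
  have tr2 : ∀ a b, P a → P b → ad a b → ¬ r a b → ∃ e, r (φ (π e) • a₀) a ∧ r (φ (π e) • a₁) b :=
    fun a b ha hb h h' => by
      obtain ⟨γ, e0, e1⟩ := (g.tr2 a b ha hb h).resolve_left h'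
      obtain ⟨e, rfl⟩ := su γ
      exact ⟨e, e0, e1⟩
  have eqv : ∀ e a b, P a → P b → ad a b →
      c (φ (π e) • a) (φ (π e) • b) = ρ (π e) (c a b) + (k e a - k e b) := fun e a b ha hb h => by
    by_cases h' : r a b
    · rw [c1 _ _ h', c1 _ _ (g.rs _ _ _ h'), k3 e a b ha hb h']
      simp
    · obtain ⟨s, e0, e1⟩ := tr2 a b ha hb h h'
      rw [c2 _ _ h' s e0 e1, c2 _ _ (fun h => h' (g.gsl_rs' _ h)) (e * s) (sm e s a₀ ▸ g.rs _ _ _ e0)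
        (sm e s a₁ ▸ g.rs _ _ _ e1), k1 _ _ _ p0, k1 _ _ _ p1, k3 _ _ _ (g.ps _ _ p0) ha e0,
        k3 _ _ _ (g.ps _ _ p1) hb e1, ρm, map_add, map_sub]
      abel
  have cls : ∀ a b a' b', P a → P b → ad a b → r a a' → r b b' → c a b = c a' b' :=
    fun a b a' b' ha hb h ra rb => by
      by_cases h' : r a b
      · rw [c1 _ _ h', c1 _ _ (g.trans _ _ _ (g.symm _ _ ra) (g.trans _ _ _ h' rb))]
      · obtain ⟨s, e0, e1⟩ := tr2 a b ha hb h h'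
        rw [c2 _ _ h' s e0 e1, c2 a' b' (fun h => h' (g.trans _ _ _ ra (g.trans _ _ _ h (g.symm _ _ rb)))) s
          (g.trans _ _ _ e0 ra) (g.trans _ _ _ e1 rb)]
  have deq : ∀ e a b d, P a → P b → P d → ad a b → ad b d → ad a d →
      c (φ (π e) • a) (φ (π e) • b) + c (φ (π e) • b) (φ (π e) • d) - c (φ (π e) • a) (φ (π e) • d) =
        ρ (π e) (c a b + c b d - c a d) := fun e a b d ha hb hd h1 h2 h3 => by
    rw [eqv e a b ha hb h1, eqv e b d hb hd h2, eqv e a d ha hd h3, map_sub, map_add]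
    abel
  have tr3 : ∀ a b d, P a → P b → P d → ad a b → ad b d → ad a d → c a b + c b d = c a d :=
    fun a b d ha hb hd h1 h2 h3 => by
      by_cases h' : r a b
      · rw [c1 _ _ h', zero_add, cls b d a d hb hd h2 (g.symm _ _ h') (g.refl _)]
      obtain ⟨s, e0, e1⟩ := tr2 a b ha hb h1 h'
      obtain ⟨d, rfl⟩ : ∃ d', d = φ (π s) • d' := ⟨(φ (π s))⁻¹ • d, by rw [smul_inv_smul]⟩
      have pd : P d := by have := g.ps (φ (π s))⁻¹ _ hd; rwa [inv_smul_smul] at this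
      have f01 : ad a₀ a₁ := g.gsl_ads' _ (g.gsl_ad2 (g.ps _ _ p0) hb (g.symm _ _ e0) (g.symm _ _ e1) h1)
      have f0 : ad a₀ d := g.gsl_ads' _ (g.adr _ _ _ hd (g.symm _ _ e0) h3)
      have f1 : ad a₁ d := g.gsl_ads' _ (g.adr _ _ _ hd (g.symm _ _ e1) h2)
      have z : c a₀ a₁ + c a₁ d - c a₀ d = 0 := tri d pd f0 f1 _ fun x hx hd' => by
        obtain ⟨e, rfl⟩ := X.surj x
        obtain ⟨x0, x1⟩ := (hS _).1 hx
        rw [← deq e a₀ a₁ d p0 p1 pd f01 f1 f0,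
          ← cls a₀ a₁ _ _ p0 p1 f01 (g.symm _ _ x0) (g.symm _ _ x1),
          ← cls a₁ d _ _ p1 pd f1 (g.symm _ _ x1) (g.symm _ _ hd'),
          ← cls a₀ d _ _ p0 pd f0 (g.symm _ _ x0) (g.symm _ _ hd')]
      have := deq s a₀ a₁ d p0 p1 pd f01 f1 f0
      rw [z, map_zero, ← cls a b _ _ ha hb h1 (g.symm _ _ e0) (g.symm _ _ e1),
        ← cls b _ _ _ hb hd h2 (g.symm _ _ e1) (g.refl _),
        ← cls a _ _ _ ha hd h3 (g.symm _ _ e0) (g.refl _)] at this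
      exact sub_eq_zero.1 this
  obtain ⟨β, hβ⟩ := g.potential tr3
  have adj : ∀ e a b, P a → P b → ad a b → k e a + ρ (π e) (β a) - β (φ (π e) • a) =
      k e b + ρ (π e) (β b) - β (φ (π e) • b) := fun e a b ha hb h => by
    have := eqv e a b ha hb h
    rw [hβ a b ha hb h, hβ _ _ (g.ps _ _ ha) (g.ps _ _ hb) (g.ads _ _ _ h), map_sub] at this
    rw [← sub_eq_zero, ← sub_eq_zero.2 this.symm]
    abel
  have all : ∀ e a, P a → k e a₀ + ρ (π e) (β a₀) - β (φ (π e) • a₀) =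
      k e a + ρ (π e) (β a) - β (φ (π e) • a) := fun e a ha => by
    obtain ⟨m, hm, h1, h2, -⟩ := g.g1 a ha
    rw [← adj e m a₀ hm p0 h2, adj e m a hm ha h1]
  refine spl_of_der X (δ := fun e => k e a₀ + ρ (π e) (β a₀) - β (φ (π e) • a₀)) (n := 1) one_ne_zero
    (fun e e' _ _ => ?_) fun v => ?_
  · rw [all e _ (g.ps (φ (π e')) _ p0), k1 _ _ _ p0, ρm, sm, map_sub, map_add]
    abel
  · rw [k2, X.proj, map_one, map_one, one_smul, one_smul]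
    simp

end H95.B9
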