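import Mathlib
import Cfsg.Agent.Lib.B59.Defs
import Cfsg.Agent.Lib.B43.Sh
import Cfsg.Agent.Lib.B43.Mo

set_option autoImplicit false

namespace H95.B9

open Cfsg Subgroup Module H15 H16 H48.BR H95.B4

theorem Pc_fix {γ : Stab vU} {σ : Equiv.Perm GolayPt} {d : Finset GolayPt} (a : H7.B4.IsMo γ σ d)
    (i : GolayPt) : (γ : Co0) • e8 i = e8 i ↔ σ i = i ∧ i ∉ d := by
  obtain ⟨h1, h2, e⟩ := a
  rw [e, mono_smul_e8]
  split_ifs with h
  · constructor
    · intro k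
      exact absurd k.symm (e8_ne_neg _ _)
    · rintro ⟨k, n⟩
      rw [k] at h
      exact absurd h n
  · constructor
    · intro k
      have := e8_injective k
      exact ⟨this, this ▸ h⟩
    · rintro ⟨k, -⟩
      rw [k]

theorem Pc_mo {γ : Stab vU} (h : (γ : Co0) • e8 none = e8 none) : ∃ σ d, H7.B4.IsMo γ σ d :=
  H7.B4.isMo_of_mem (exists_mono_of_e8 _ (Or.inl h))

theorem Pc_mem2 {γ : Stab vU} {σ : Equiv.Perm GolayPt} {d : Finset GolayPt} (a : H7.B4.IsMo γ σ d) :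
    γ ∈ PT {none, some 0} ↔ σ none = none ∧ σ (some 0) = some 0 := by
  simp only [mem_PT, Finset.mem_insert, Finset.mem_singleton, forall_eq_or_imp, forall_eq, Pc_fix a]
  exact ⟨fun h => ⟨h.1.1, h.2.1⟩, fun h => ⟨⟨h.1, a.U.1⟩, h.2, a.U.2.1⟩⟩

theorem Pc_mem3 {γ : Stab vU} {σ : Equiv.Perm GolayPt} {d : Finset GolayPt} (a : H7.B4.IsMo γ σ d) :
    γ ∈ PT {none, some 0, some 1} ↔
      σ none = none ∧ σ (some 0) = some 0 ∧ σ (some 1) = some 1 ∧ some 1 ∉ d := by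
  simp only [mem_PT, Finset.mem_insert, Finset.mem_singleton, forall_eq_or_imp, forall_eq, Pc_fix a]
  exact ⟨fun h => ⟨h.1.1, h.2.1.1, h.2.2⟩, fun h => ⟨⟨h.1, a.U.1⟩, ⟨h.2.1, a.U.2.1⟩, h.2.2⟩⟩

theorem mem_PT2 {γ : Stab vU} : γ ∈ PT {none, some 0} ↔
    ∃ σ d, H7.B4.IsMo γ σ d ∧ σ none = none ∧ σ (some 0) = some 0 := by
  constructor
  · intro h
    obtain ⟨σ, d, a⟩ := Pc_mo (h none (by simp))
    exact ⟨σ, d, a, (Pc_mem2 a).1 h⟩
  · rintro ⟨σ, d, a, h⟩
    exact (Pc_mem2 a).2 h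

theorem mem_PT3 {γ : Stab vU} : γ ∈ PT {none, some 0, some 1} ↔
    ∃ σ d, H7.B4.IsMo γ σ d ∧ σ none = none ∧ σ (some 0) = some 0 ∧ σ (some 1) = some 1 ∧ some 1 ∉ d := by
  constructor
  · intro h
    obtain ⟨σ, d, a⟩ := Pc_mo (h none (by simp))
    exact ⟨σ, d, a, (Pc_mem3 a).1 h⟩
  · rintro ⟨σ, d, a, h⟩
    exact (Pc_mem3 a).2 h

theorem Pc_card (H : Subgroup (Stab vU)) : Nat.card H = Nat.card (H.map (Stab vU).subtype) :=
  (card_map_of_injective (subtype_injective _)).symm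

theorem card_PT2 : Nat.card (PT {none, some 0}) = 2 ^ 10 * 443520 := by
  have h := card_mono_filter (fun σ => σ none = none ∧ σ (some 0) = some 0)
    (fun c => none ∉ c ∧ some 0 ∉ c) ((PT {none, some 0}).map (Stab vU).subtype : Subgroup Co0)
    (by
      rintro _ ⟨γ, h, rfl⟩
      obtain ⟨σ, d, a, -⟩ := mem_PT2.1 h
      exact a.mem) fun σ hσ c hc => by
      constructor
      · rintro ⟨γ, h, e⟩
        have a : H7.B4.IsMo γ σ c := ⟨hσ, hc, e⟩
        exact ⟨(Pc_mem2 a).1 h, a.U.1, a.U.2.1⟩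
      · rintro ⟨⟨s1, s2⟩, c1, c2⟩
        obtain ⟨γ, a⟩ := H7.B4.exists_isMo hσ hc c1 c2 s1 s2
        exact ⟨γ, (Pc_mem2 a).2 ⟨s1, s2⟩, a.2.2⟩
  have h2 := ncard_codeSets_filter (fun m => !(m.testBit 23) && !(m.testBit 0))
    {c | c ∈ code ∧ none ∉ c ∧ some 0 ∉ c} (fun u hu => by
      rw [Set.mem_ofPred_eq, and_iff_right (ofMask_cw_mem hu)]
      simp [mem_ofMask, idx]) fun _ h => h.1
  have h3 : Nat.card {σ : Equiv.Perm GolayPt // σ ∈ M24 ∧ σ none = none ∧ σ (some 0) = some 0} = 443520 :=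
    (Nat.card_congr (Equiv.subtypeEquivRight fun σ => and_assoc.symm)).trans
      (card_stab2 (p := none) (q := some 0) (by decide))
  rw [h3, h2, show countLt2 64 64 (fun u => !((cw u).testBit 23) && !((cw u).testBit 0)) = 1024 by
      decide +kernel] at h
  exact (Pc_card _).trans (h.trans (by norm_num))

theorem card_PT3 : Nat.card (PT {none, some 0, some 1}) = 2 ^ 9 * 20160 := by
  have h := card_mono_filter (fun σ => σ none = none ∧ σ (some 0) = some 0 ∧ σ (some 1) = some 1)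
    (fun c => none ∉ c ∧ some 0 ∉ c ∧ some 1 ∉ c)
    ((PT {none, some 0, some 1}).map (Stab vU).subtype : Subgroup Co0)
    (by
      rintro _ ⟨γ, h, rfl⟩
      obtain ⟨σ, d, a, -⟩ := mem_PT3.1 h
      exact a.mem) fun σ hσ c hc => by
      constructor
      · rintro ⟨γ, h, e⟩
        have a : H7.B4.IsMo γ σ c := ⟨hσ, hc, e⟩
        obtain ⟨s1, s2, s3, c3⟩ := (Pc_mem3 a).1 h
        exact ⟨⟨s1, s2, s3⟩, a.U.1, a.U.2.1, c3⟩
      · rintro ⟨⟨s1, s2, s3⟩, c1, c2, c3⟩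
        obtain ⟨γ, a⟩ := H7.B4.exists_isMo hσ hc c1 c2 s1 s2
        exact ⟨γ, (Pc_mem3 a).2 ⟨s1, s2, s3, c3⟩, a.2.2⟩
  have h2 := ncard_codeSets_filter (fun m => !(m.testBit 23) && (!(m.testBit 0) && !(m.testBit 1)))
    {c | c ∈ code ∧ none ∉ c ∧ some 0 ∉ c ∧ some 1 ∉ c} (fun u hu => by
      rw [Set.mem_ofPred_eq, and_iff_right (ofMask_cw_mem hu)]
      simp [mem_ofMask, idx]
      exact fun _ _ => rfl) fun _ h => h.1
  have h3 : Nat.card {σ : Equiv.Perm GolayPt //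
      σ ∈ M24 ∧ σ none = none ∧ σ (some 0) = some 0 ∧ σ (some 1) = some 1} = 20160 :=
    (Nat.card_congr (Equiv.subtypeEquivRight fun σ => and_assoc.symm.trans and_assoc.symm)).trans
      (card_stab3 (p := none) (q := some 0) (r := some 1) (by decide) (by decide) (by decide))
  rw [h3, h2, show countLt2 64 64
      (fun u => !((cw u).testBit 23) && (!((cw u).testBit 0) && !((cw u).testBit 1))) = 512 by
      decide +kernel] at h
  exact (Pc_card _).trans (h.trans (by norm_num))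

theorem card_S2 : Nat.card S2 = 18393661440 := by
  have h := card_eq_of_orbit S2 vX {vX, vU - vX} (fun g hg => Mo_mem_S2.1 hg) (by
    rintro y (rfl | rfl)
    · exact ⟨1, one_mem _, one_smul _ _⟩
    · obtain ⟨m, -, g⟩ := Mo_swap
      exact ⟨m, Mo_mem_S2.2 (Or.inr g), g⟩)
  have n : vX ≠ vU - vX := fun e => by
    have := congrArg (fun v : leechLattice => (v : GolayPt → ℤ) none) e
    simp only [AddSubgroup.coe_sub, Pi.sub_apply, coe_U, coe_X, v44_apply] at this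
    revert this
    decide
  have e : S2 ⊓ MulAction.stabilizer (Stab vU) vX = (Stab vU ⊓ Stab vX).subgroupOf (Stab vU) := by
    ext γ
    exact ⟨fun k => ⟨γ.2, k.2⟩, fun k => ⟨Mo_mem_S2.2 (Or.inl k.2), k.2⟩⟩
  rw [h, Set.ncard_pair n, e, Nat.card_congr (subgroupOfEquivOfLe inf_le_left).toEquiv, card_U62]

end H95.B9
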