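import Mathlib
import Cfsg.Agent.Lib.B59.Pc

set_option autoImplicit false

namespace H95.B9

open Cfsg Subgroup Module H15 H16 H48.BR H95.B4

variable {F : Type*} [Field F]

theorem pt2_perfect : commutator ↥(M24 ⊓ St (none : GolayPt) ⊓ St (some 0 : GolayPt)) = ⊤ := by
  have := isSimple_stab2 (p := none) (q := some 0) (by decide)
  refine (commutator_normal (⊤ : Subgroup ↥(M24 ⊓ St (none : GolayPt) ⊓ St (some 0 : GolayPt)))
    ⊤).eq_bot_or_eq_top.resolve_left fun h => ?_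
  have c := (commutator_eq_bot_iff _).1 h
  let _ : CommGroup ↥(M24 ⊓ St (none : GolayPt) ⊓ St (some 0 : GolayPt)) := { mul_comm := c.is_comm.comm }
  have := IsSimpleGroup.prime_card (α := ↥(M24 ⊓ St (none : GolayPt) ⊓ St (some 0 : GolayPt)))
  rw [card_stab2 (by decide)] at this
  exact absurd this (by norm_num)

theorem pt2_pm (σ : ↥(M24 ⊓ St (none : GolayPt) ⊓ St (some 0 : GolayPt))) :
    H7.B4.pm σ ∈ ⁅PT {none, some 0}, PT {none, some 0}⁆ := by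
  have k : map H7.B4.pm ⊤ ≤ PT {none, some 0} := by
    rintro _ ⟨x, -, rfl⟩
    exact mem_PT2.2 ⟨_, _, H7.B4.isMo_pm x, x.2.1.2, x.2.2⟩
  refine commutator_mono k k ?_
  rw [← map_commutator]
  exact ⟨σ, (pt2_perfect.ge (mem_top _) :), rfl⟩

theorem pt2_perm {g : Stab vU} {σ τ : Equiv.Perm GolayPt} {c d : Finset GolayPt}
    (a : H7.B4.IsMo g σ c) (b : H7.B4.IsMo g τ d) : σ = τ := by
  obtain ⟨_, _, e⟩ := a
  obtain ⟨_, _, f⟩ := b
  exact (mono_inj (e.symm.trans f)).1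

theorem pt2_zero (h2 : (2 : F) ≠ 0) {a : GolayPt → F} (h : ∀ e ∈ EE, Mp e a a) {i : GolayPt}
    (h0 : i ≠ none) (h1 : i ≠ some 0) : a i = 0 := by
  obtain ⟨c, hc, -⟩ := H7.B4.exists_single (S := ∅) (by simp) h0 h1
  have := h _ (H7.B4.ee_mem c) _ _ (H7.B4.isMo_ee c) i
  rw [Equiv.Perm.one_apply, H7.B4.sg, if_pos hc] at this
  exact (mul_eq_zero.1 (show 2 * a i = 0 by linear_combination this)).resolve_left h2

theorem cc2 (h2 : (2 : F) ≠ 0) : ∃ m, Cc F MM (PT {none, some 0}) EE m := by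
  obtain ⟨m, μ, b, hm, m0, m1⟩ : ∃ m μ b, H7.B4.IsMo m μ b ∧ μ none = some 0 ∧ μ (some 0) = none :=
    ⟨_, _, _, H7.B4.isMo_k, H7.B4.k_val.1, H7.B4.k_val.2.1⟩
  have mM : m ∈ MM := hm.mem
  refine ⟨m, fun r hr => ?_, fun g hg => ?_, mM, fun g hg r hr => ?_, fun r => ?_, fun g hg => ?_,
    fun g hg => ?_, fun a ha h => ⟨fun g hg a' k => ?_, fun a' k => ?_⟩⟩
  · obtain ⟨c, rfl⟩ := H7.B4.exists_ee hr
    exact mem_PT2.2 ⟨_, _, H7.B4.isMo_ee c, rfl, rfl⟩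
  · obtain ⟨σ, d, h, -⟩ := mem_PT2.1 hg
    exact h.mem
  · obtain ⟨c, rfl⟩ := H7.B4.exists_ee hr
    obtain ⟨σ, d, h⟩ := H7.B4.isMo_of_mem (g := g⁻¹) (MM.inv_mem hg)
    obtain ⟨c', -, e⟩ := h.ee_mul c
    rw [mul_assoc, e, mul_inv_cancel_left]
    exact H7.B4.ee_mem c'
  · obtain ⟨c, e⟩ := H7.B4.exists_ee r.2
    exact ⟨1, Subtype.ext (by rw [pow_one, pow_two, coe_mul, e, H7.B4.ee_sq, coe_one])⟩
  · obtain ⟨σ, d, h, s0, s1⟩ := mem_PT2.1 hg
    rw [h.split s0 s1]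
    exact mul_mem (mem_sup_left (H7.B4.ee_mem _)) (mem_sup_right (pt2_pm _))
  · obtain ⟨σ, d, h⟩ := H7.B4.isMo_of_mem (g := g) hg
    rcases h.U.2.2 with s | s
    · exact Or.inl (mem_PT2.2 ⟨σ, d, h, s⟩)
    obtain ⟨τ, c, k⟩ := H7.B4.isMo_of_mem (g := m⁻¹ * g) (MM.mul_mem (MM.inv_mem mM) hg)
    have e := hm.mul k
    rw [mul_inv_cancel_left] at e
    obtain rfl := pt2_perm e h
    exact Or.inr (mem_PT2.2 ⟨τ, c, k, μ.injective (s.1.trans m0.symm), μ.injective (s.2.trans m1.symm)⟩)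
  · obtain ⟨σ, d, p, s0, s1⟩ := mem_PT2.1 hg
    funext j
    obtain ⟨i, rfl⟩ := σ.surjective j
    rw [k σ d p i]
    by_cases i0 : i = none
    · rw [i0, s0, H7.B4.sg, if_neg p.U.1, one_mul]
    by_cases i1 : i = some 0
    · rw [i1, s1, H7.B4.sg, if_neg p.U.2.1, one_mul]
    rw [pt2_zero h2 h i0 i1, pt2_zero h2 h (fun e => i0 (σ.injective (e.trans s0.symm)))
      fun e => i1 (σ.injective (e.trans s1.symm)), mul_zero]
  · funext j
    obtain ⟨i, rfl⟩ := μ.surjective j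
    rw [k μ b hm i, Pi.neg_apply]
    by_cases i0 : i = none
    · rw [i0, m0, H7.B4.sg, if_neg hm.U.2.1]; linear_combination ha
    by_cases i1 : i = some 0
    · rw [i1, m1, H7.B4.sg, if_neg hm.U.1]; linear_combination ha
    rw [pt2_zero h2 h i0 i1, pt2_zero h2 h (fun e => i1 (μ.injective (e.trans m1.symm)))
      fun e => i0 (μ.injective (e.trans m0.symm)), mul_zero, neg_zero]

end H95.B9
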