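import Mathlib
import Cfsg.Agent.Lib.B59.Pc
import Cfsg.Agent.Lib.B59.GrA

set_option autoImplicit false

namespace H95.B9

open Cfsg Subgroup Module H15 H16 H48.BR H95.B4

theorem Pt3_XY : vX + vY = e8 none := by
  apply Subtype.ext
  funext p
  rw [AddSubgroup.coe_add, Pi.add_apply, coe_X, coe_Y, coe_e8, Pi.single_apply]
  simp only [v44_apply]
  have n : (none : GolayPt) ≠ some 1 := by decide
  by_cases a : p = none
  · subst a; simp
  · by_cases b : p = some 1
    · subst b; simp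
    · simp [a, b]

theorem Pt3_X_sub_Y : vX - vY = e8 (some 1) := by
  rw [vY]; abel

theorem Pt3_UU : vU + vU - e8 none = e8 (some 0) := by
  apply Subtype.ext
  funext p
  rw [AddSubgroup.coe_sub, AddSubgroup.coe_add, Pi.sub_apply, Pi.add_apply, coe_U, coe_e8, coe_e8,
    Pi.single_apply, Pi.single_apply]
  simp only [v44_apply]
  by_cases a : p = none
  · subst a; simp
  · by_cases b : p = some 0
    · subst b; simp
    · simp [a, b]

theorem Pt3_mem {γ : Stab vU} : γ ∈ PT {none, some 0, some 1} ↔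
    (γ : Co0) • vX = vX ∧ (γ : Co0) • vY = vY := by
  have u : (γ : Co0) • vU = vU := γ.2
  constructor
  · intro h
    have h0 := h none (by simp)
    have h1 := h (some 1) (by simp)
    have e : vX + vX = e8 none + e8 (some 1) := by rw [← Pt3_XY, ← Pt3_X_sub_Y]; abel
    have k : (γ : Co0) • vX + (γ : Co0) • vX = vX + vX := by
      rw [← smul_add, e, smul_add, h0, h1]
    have x : (γ : Co0) • vX = vX := by
      apply Subtype.ext
      funext p
      have := congrFun (congrArg Subtype.val k) p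
      simp only [AddSubgroup.coe_add, Pi.add_apply] at this
      omega
    exact ⟨x, by rw [vY, smul_sub, x, h1]⟩
  · rintro ⟨x, y⟩ i hi
    have h0 : (γ : Co0) • e8 none = e8 none := by rw [← Pt3_XY, smul_add, x, y]
    simp only [Finset.mem_insert, Finset.mem_singleton] at hi
    rcases hi with rfl | rfl | rfl
    · exact h0
    · rw [← Pt3_UU, smul_sub, smul_add, u, h0]
    · rw [← Pt3_X_sub_Y, smul_sub, x, y]

theorem Pt3_SS {γ : Stab vU} : γ ∈ SS ↔ ((γ : Co0) • vX = vX ∧ (γ : Co0) • vY = vY) ∨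
    ((γ : Co0) • vX = vU - vX ∧ (γ : Co0) • vY = vU - vY) := by
  constructor
  · rintro ⟨h, k⟩
    have n : sqNorm (((γ : Co0) • e8 (some 1) : leechLattice) : GolayPt → ℤ) = 64 :=
      (sqNorm_co0 _ _).trans (sqNorm_e8 _)
    have up : vUP = vX + vY - vU := by rw [Pt3_XY, ← U_add_UP]; abel
    have nu := norm_UP
    rcases (tw_X.cu (tw_X.smul γ)).1 (Cu.symm h) with x | x <;>
      rcases (tw_Y.cu (tw_Y.smul γ)).1 (Cu.symm k) with y | y
    · exact Or.inl ⟨x, y⟩
    · have : (γ : Co0) • e8 (some 1) = vUP := by rw [← Pt3_X_sub_Y, smul_sub, x, y, up]; abel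
      rw [this] at n
      omega
    · have : (γ : Co0) • e8 (some 1) = -vUP := by rw [← Pt3_X_sub_Y, smul_sub, x, y, up]; abel
      rw [this, AddSubgroup.coe_neg, sqNorm_neg] at n
      omega
    · exact Or.inr ⟨x, y⟩
  · intro h
    refine ⟨Cu.symm ((tw_X.cu (tw_X.smul γ)).2 ?_), Cu.symm ((tw_Y.cu (tw_Y.smul γ)).2 ?_)⟩
    · exact h.imp And.left And.left
    · exact h.imp And.right And.right

theorem Pt3_mono {γ : Stab vU} (h : γ ∈ SS) : (γ : Co0) ∈ monoGroup := by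
  rcases Pt3_SS.1 h with ⟨x, y⟩ | ⟨x, y⟩
  · exact mem_monoGroup_of_e8 (i := some 1) (j := some 1)
      (Or.inl (by rw [← Pt3_X_sub_Y, smul_sub, x, y]))
  · exact mem_monoGroup_of_e8 (i := some 1) (j := some 1)
      (Or.inr (by rw [← Pt3_X_sub_Y, smul_sub, x, y]; abel))

theorem Pt3_swap : ∃ (m : Stab vU) (σ : Equiv.Perm GolayPt) (d : Finset GolayPt), H7.B4.IsMo m σ d ∧
    σ none = some 0 ∧ σ (some 0) = none ∧ σ (some 1) = some 1 ∧ some 1 ∈ d ∧
    (m : Co0) • vX = vU - vX ∧ (m : Co0) • vY = vU - vY := by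
  obtain ⟨m, hm, x⟩ := Mo_swap
  obtain ⟨σ, d, a⟩ := H7.B4.isMo_of_mem (g := m) hm
  obtain ⟨d1, d2, s⟩ := a.U
  obtain ⟨hσ, hd, e⟩ := a
  have n1 : (none : GolayPt) ≠ some 1 := by decide
  have n2 : (some 0 : GolayPt) ≠ some 1 := by decide
  have k : ∀ i, (vU : GolayPt → ℤ) (σ i) - (vX : GolayPt → ℤ) (σ i) =
      if σ i ∈ d then -(vX : GolayPt → ℤ) i else (vX : GolayPt → ℤ) i := fun i => by
    have := mono_smul_apply hσ hd vX i
    rwa [← e, x, AddSubgroup.coe_sub, Pi.sub_apply] at this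
  have s' : σ none = some 0 ∧ σ (some 0) = none := by
    refine s.resolve_left fun s => ?_
    have := k none
    rw [s.1, if_neg d1, coe_U, coe_X] at this
    simp [v44_apply] at this
  have s1 : σ (some 1) = some 1 ∧ some 1 ∈ d := by
    have := k (some 1)
    have a1 : σ (some 1) ≠ none := fun h => n2 (σ.injective (s'.2.trans h.symm))
    have a2 : σ (some 1) ≠ some 0 := fun h => n1 (σ.injective (s'.1.trans h.symm))
    rw [coe_U, coe_X] at this
    by_cases b : σ (some 1) = some 1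
    · refine ⟨b, ?_⟩
      by_contra c
      rw [b, if_neg c] at this
      simp [v44_apply, n2.symm] at this
    · exfalso
      simp only [v44_apply, if_neg a1, if_neg a2, if_neg b, if_neg n1.symm] at this
      split_ifs at this <;> omega
  refine ⟨m, σ, d, ⟨hσ, hd, e⟩, s'.1, s'.2, s1.1, s1.2, x, ?_⟩
  have := mono_smul_e8 hσ hd (some 1)
  rw [← e, s1.1, if_pos s1.2] at this
  rw [vY, smul_sub, x, this]
  abel

theorem Pt3_gen : PT {none, some 0, some 1} ≤ PT {none, some 0, some 1} ⊓ EE ⊔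
    ⁅PT {none, some 0, some 1}, PT {none, some 0, some 1}⁆ := by
  intro γ h
  obtain ⟨σ, d, a, s1, s2, s3, d3⟩ := mem_PT3.1 h
  rw [a.split s1 s2]
  refine mul_mem (mem_sup_left ⟨mem_PT3.2 ⟨_, _, H7.B4.isMo_ee _, rfl, rfl, rfl, d3⟩, H7.B4.ee_mem _⟩)
    (mem_sup_right ?_)
  have hs := isSimple_stab3 (p := none) (q := some 0) (r := some 1) (by decide) (by decide) (by decide)
  have hp : commutator ↥(M24 ⊓ St (none : GolayPt) ⊓ St (some 0 : GolayPt) ⊓ St (some 1 : GolayPt)) = ⊤ := by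
    refine (commutator_normal (⊤ : Subgroup _) ⊤).eq_bot_or_eq_top.resolve_left fun h => ?_
    have c := (commutator_eq_bot_iff _).1 h
    let _ : CommGroup ↥(M24 ⊓ St (none : GolayPt) ⊓ St (some 0 : GolayPt) ⊓ St (some 1 : GolayPt)) :=
      { mul_comm := c.is_comm.comm }
    have := IsSimpleGroup.prime_card
      (α := ↥(M24 ⊓ St (none : GolayPt) ⊓ St (some 0 : GolayPt) ⊓ St (some 1 : GolayPt)))
    rw [card_stab3 (by decide) (by decide) (by decide)] at this
    exact absurd this (by norm_num)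
  let ψ : ↥(M24 ⊓ St (none : GolayPt) ⊓ St (some 0 : GolayPt) ⊓ St (some 1 : GolayPt)) →* Stab vU :=
    H7.B4.pm.comp (inclusion inf_le_left)
  have k : map ψ ⊤ ≤ PT {none, some 0, some 1} := by
    rintro _ ⟨x, -, rfl⟩
    exact mem_PT3.2 ⟨_, _, H7.B4.isMo_pm _, x.2.1.1.2, x.2.1.2, x.2.2, Finset.notMem_empty _⟩
  refine commutator_mono k k ?_
  rw [← map_commutator]
  exact ⟨⟨σ, ⟨⟨a.choose, s1⟩, s2⟩, s3⟩, (hp.ge (mem_top _) :), rfl⟩

variable {F : Type*} [Field F]

theorem Pt3_zero (h2 : (2 : F) ≠ 0) {a : GolayPt → F}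
    (h : ∀ e ∈ PT {none, some 0, some 1} ⊓ EE, Mp e a a) {i : GolayPt} (h0 : i ≠ none)
    (h1 : i ≠ some 0) (h3 : i ≠ some 1) : a i = 0 := by
  obtain ⟨c, c1, c2⟩ := H7.B4.exists_single (S := {some 1}) (p := i)
    ((Finset.card_erase_le).trans (by simp)) h0 h1
  have c3 : some 1 ∉ c.1 := fun k => h3 (c2 _ (Finset.mem_singleton_self _) k).symm
  have := h (H7.B4.ee c) ⟨mem_PT3.2 ⟨_, _, H7.B4.isMo_ee _, rfl, rfl, rfl, c3⟩, H7.B4.ee_mem _⟩
    1 c.1 (H7.B4.isMo_ee c) i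
  rw [Equiv.Perm.one_apply, H7.B4.sg, if_pos c1] at this
  exact (mul_eq_zero.1 (show 2 * a i = 0 by linear_combination this)).resolve_left h2

theorem cc3 (h2 : (2 : F) ≠ 0) :
    ∃ m, Cc F SS (PT {none, some 0, some 1}) (PT {none, some 0, some 1} ⊓ EE) m := by
  obtain ⟨m, σ, d, hm, s1, s2, s3, d3, mx, my⟩ := Pt3_swap
  refine ⟨m, inf_le_left, fun γ h => Pt3_SS.2 (Or.inl (Pt3_mem.1 h)), Pt3_SS.2 (Or.inr ⟨mx, my⟩),
    fun g hg r hr => ⟨?_, ?_⟩, ?_, Pt3_gen, fun g hg => ?_, fun a ha h => ⟨fun g hg a' k => ?_, fun a' k => ?_⟩⟩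
  · obtain ⟨x, y⟩ := Pt3_mem.1 hr.1
    have u : (r : Co0) • vU = vU := r.2
    refine Pt3_mem.2 ?_
    simp only [coe_mul, mul_smul]
    have key : ∀ w : leechLattice, (r : Co0) • w = w →
        (((g⁻¹ : Stab vU) : Co0) • w = w ∨ ((g⁻¹ : Stab vU) : Co0) • w = vU - w) →
        (g : Co0) • (r : Co0) • ((g⁻¹ : Stab vU) : Co0) • w = w := by
      intro w hw e
      have : (r : Co0) • ((g⁻¹ : Stab vU) : Co0) • w = ((g⁻¹ : Stab vU) : Co0) • w := by
        rcases e with e | e <;> rw [e]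
        · exact hw
        · rw [smul_sub, u, hw]
      rw [this, coe_inv, smul_inv_smul]
    have := Pt3_SS.1 (SS.inv_mem hg)
    exact ⟨key _ x (this.imp And.left And.left), key _ y (this.imp And.right And.right)⟩
  · obtain ⟨c, rfl⟩ := H7.B4.exists_ee (g := r) hr.2
    obtain ⟨τ, e, a⟩ := H7.B4.isMo_of_mem (Pt3_mono (SS.inv_mem hg))
    obtain ⟨c', -, f⟩ := a.ee_mul c
    rw [mul_assoc, f, mul_inv_cancel_left]
    exact H7.B4.ee_mem c'
  · rintro ⟨r, hr⟩
    obtain ⟨c, rfl⟩ := H7.B4.exists_ee (g := r) hr.2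
    exact ⟨1, Subtype.ext (by rw [pow_one, sq]; exact H7.B4.ee_sq c)⟩
  · rcases Pt3_SS.1 hg with h | ⟨x, y⟩
    · exact Or.inl (Pt3_mem.2 h)
    · refine Or.inr (Pt3_mem.2 ?_)
      simp only [coe_mul, mul_smul, coe_inv, inv_smul_eq_iff]
      exact ⟨x.trans mx.symm, y.trans my.symm⟩
  · obtain ⟨τ, e, b, t1, t2, t3, e3⟩ := mem_PT3.1 hg
    obtain ⟨e1, e2, -⟩ := b.U
    funext j
    obtain ⟨i, rfl⟩ := τ.surjective j
    rw [k τ e b i, H7.B4.sg]
    by_cases i1 : i = none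
    · subst i1; rw [t1, if_neg e1, one_mul]
    by_cases i2 : i = some 0
    · subst i2; rw [t2, if_neg e2, one_mul]
    by_cases i3 : i = some 1
    · subst i3; rw [t3, if_neg e3, one_mul]
    rw [Pt3_zero h2 h i1 i2 i3, mul_zero, Pt3_zero h2 h (fun f => i1 (τ.injective (f.trans t1.symm)))
      (fun f => i2 (τ.injective (f.trans t2.symm))) (fun f => i3 (τ.injective (f.trans t3.symm)))]
  · obtain ⟨e1, e2, -⟩ := hm.U
    funext j
    obtain ⟨i, rfl⟩ := σ.surjective j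
    rw [k σ d hm i, H7.B4.sg, Pi.neg_apply]
    by_cases i1 : i = none
    · subst i1; rw [s1, if_neg e2]; linear_combination ha
    by_cases i2 : i = some 0
    · subst i2; rw [s2, if_neg e1]; linear_combination ha
    by_cases i3 : i = some 1
    · subst i3; rw [s3, if_pos d3, neg_one_mul]
    rw [Pt3_zero h2 h i1 i2 i3, mul_zero, Pt3_zero h2 h (fun f => i2 (σ.injective (f.trans s2.symm)))
      (fun f => i1 (σ.injective (f.trans s1.symm))) (fun f => i3 (σ.injective (f.trans s3.symm))), neg_zero]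

end H95.B9
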