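import Mathlib
import Cfsg.Agent.Lib.B59.Defs

set_option autoImplicit false

namespace H95.B9

open Cfsg Subgroup Module H15 H16 H48.BR H95.B4

variable {F : Type*} [Field F] {C E : Type*} [Group C] [Group E] {V : Type*} [AddCommGroup V] [Module F V]
  {π : E →* C} {ρ : Representation F C V} {ι : V → E} [Finite C] {φ : C →* Stab vU}
  {j : V →ₗ[F] GolayPt → F}

theorem Cc.pull (h2 : (2 : F) ≠ 0) (N : Nm ρ φ j) {S P R : Subgroup (Stab vU)} {m : Stab vU} (c : Cc F S P R m)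
    {K : Subgroup C} (hK : ∀ γ ∈ S, ∃ k ∈ K, φ k = γ) (hF : Fx ρ (K ⊓ φ.ker : Subgroup C) ≤ Fx ρ φ.ker) :
    ∃ m', Cd ρ (K ⊓ S.comap φ) (K ⊓ P.comap φ) (K ⊓ R.comap φ) m' := by
  have : Fact (Nat.Prime 2) := ⟨Nat.prime_two⟩
  have mp : ∀ T : Subgroup (Stab vU), T ≤ S → (K ⊓ T.comap φ).map φ = T := fun T hT => by
    refine le_antisymm (map_le_iff_le_comap.2 inf_le_right) fun γ hγ => ?_
    obtain ⟨k, hk, rfl⟩ := hK γ (hT hγ)
    exact ⟨k, ⟨hk, hγ⟩, rfl⟩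
  have nf : ∀ g, ∀ v ∈ Fx ρ φ.ker, ρ g v ∈ Fx ρ φ.ker := fun g v hv => mem_Fx.2 fun a ha => by
    have : g⁻¹ * a * g ∈ φ.ker := by
      have := (MonoidHom.normal_ker φ).conj_mem a ha g⁻¹
      rwa [inv_inv] at this
    rw [← rep_mul, show a * g = g * (g⁻¹ * a * g) by group, rep_mul, mem_Fx.1 hv _ this]
  obtain ⟨m', hm, rfl⟩ := hK m c.mS
  refine ⟨m', inf_le_inf_left _ (comap_mono c.RP), inf_le_inf_left _ (comap_mono c.PS), ⟨hm, c.mS⟩,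
    fun g hg r hr => ⟨K.mul_mem (K.mul_mem hg.1 hr.1) (K.inv_mem hg.1), ?_⟩, ?_, fun x hx => ?_,
    fun g hg => (c.idx _ hg.2).imp (fun h => ⟨hg.1, h⟩) fun h => ⟨K.mul_mem (K.inv_mem hm) hg.1, ?_⟩,
    fun v hv => ?_⟩
  · show φ (g * r * g⁻¹) ∈ R
    rw [map_mul, map_mul, map_inv]
    exact c.norm _ hg.2 _ hr.2
  · obtain ⟨n, hn⟩ := IsPGroup.iff_card.1
      ((c.two.comap_of_ker_isPGroup φ N.two).to_inf_right (H := K))
    rw [hn, Nat.cast_pow]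
    exact pow_ne_zero _ (by exact_mod_cast h2)
  · have h : φ x ∈ (K ⊓ R.comap φ ⊔ ⁅K ⊓ P.comap φ, K ⊓ P.comap φ⁆).map φ := by
      rw [Subgroup.map_sup, map_commutator, mp R (c.RP.trans c.PS), mp P c.PS]
      exact c.gen hx.2
    obtain ⟨y, hy, e⟩ := h
    have yK : y ∈ K := (sup_le inf_le_left ((commutator_le_self _).trans inf_le_left) : _ ≤ K) hy
    have : x * y⁻¹ ∈ K ⊓ R.comap φ := ⟨K.mul_mem hx.1 (K.inv_mem yK), by
      show φ (x * y⁻¹) ∈ R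
      rw [map_mul, map_inv, e, mul_inv_cancel]; exact one_mem _⟩
    simpa using mul_mem (mem_sup_left this) hy
  · show φ (m'⁻¹ * g) ∈ P
    rwa [map_mul, map_inv]
  · have v0 : v ∈ Fx ρ φ.ker := hF (mem_Fx.2 fun a ha => mem_Fx.1 hv a ⟨ha.1, by
      show φ a ∈ R
      rw [show φ a = 1 from ha.2]; exact one_mem _⟩)
    obtain ⟨f1, f2⟩ := c.fix (j v) (N.sum v v0) fun e he => by
      obtain ⟨k, hk, rfl⟩ := hK e (c.PS (c.RP he))
      have := N.law k v v0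
      rwa [mem_Fx.1 hv k ⟨hk, he⟩] at this
    refine ⟨fun g hg => sub_eq_zero.1 (N.inj _ (sub_mem (nf g v v0) v0) ?_),
      eq_neg_of_add_eq_zero_left (N.inj _ (add_mem (nf m' v v0) v0) ?_)⟩
    · rw [map_sub, f1 _ hg.2 _ (N.law g v v0), sub_self]
    · rw [map_add, f2 _ (N.law m' v v0), neg_add_cancel]

theorem Nm.eq_zero (N : Nm ρ φ j) {T : Stab vU → Prop} {v : V} (hv : v ∈ Fx ρ φ.ker)
    (h : ∀ γ, T γ → ∃ c, φ c = γ ∧ ρ c v = v)
    (k : ∀ a : GolayPt → F, a none + a (some 0) = 0 → (∀ γ, T γ → Mp γ a a) → a = 0) : v = 0 := by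
  refine N.inj v hv (k _ (N.sum v hv) fun γ hγ => ?_)
  obtain ⟨c, rfl, e⟩ := h γ hγ
  have := N.law c v hv
  rwa [e] at this

end H95.B9
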