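import Mathlib
import Cfsg.Agent.Lib.B59.Cen

set_option autoImplicit false

namespace H95.B9

open Cfsg Subgroup Module H15 H16 H48.BR H95.B4

variable {F : Type*} [Field F] {G E : Type*} [Group G] [Group E] {V : Type*} [AddCommGroup V] [Module F V]
  {π : E →* G} {ρ : Representation F G V} {ι : V → E} {H K : Subgroup G} {t t' : G → E}

variable {S P R : Subgroup G} {m : G}

open scoped commutatorElement

theorem Tr_transfer {M : Type*} [Group M] (D : Subgroup M) [D.FiniteIndex] (hc : IsMulCommutative D) :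
    ∃ w : M →* M, (∀ e, w e ∈ D) ∧ ∀ z ∈ center M, w z = z ^ D.index := by
  letI : CommGroup D := { (inferInstance : Group D) with mul_comm := hc.is_comm.comm }
  refine ⟨D.subtype.comp (MonoidHom.transfer (MonoidHom.id D)), fun e => Subtype.property _, fun z hz => ?_⟩
  rw [MonoidHom.comp_apply, MonoidHom.transfer_eq_pow _ z fun k g _ => by
    rw [mul_assoc, ← mem_center_iff.1 (pow_mem hz k) g, inv_mul_cancel_left]]
  rfl

theorem Tr_pow (X : Xt π ρ ι) (v : V) (n : ℕ) : ι v ^ n = ι ((n : F) • v) := by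
  induction n with
  | zero => rw [pow_zero, Nat.cast_zero, zero_smul, X.zero]
  | succ n ih => rw [pow_succ, ih, Nat.cast_succ, add_smul, one_smul, X.add]

theorem Tr_sec_pow (h : Sec π H t) {a : G} (ha : a ∈ H) (n : ℕ) : t (a ^ n) = t a ^ n := by
  induction n with
  | zero => rw [pow_zero, pow_zero, h.one]
  | succ n ih => rw [pow_succ, pow_succ, h.mul _ (pow_mem ha n) _ ha, ih]

theorem spl_cen [Finite G] (X : Xt π ρ ι) (N : Cd ρ S P R m)
    (hp : ∀ p : ℕ, p.Prime → (p : F) = 0 → ¬ p ^ 2 ∣ Nat.card P) : Spl π P := by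
  by_cases h0 : (Nat.card P : F) = 0
  swap
  · exact spl_of_card X h0
  have hd : ringChar F ∣ Nat.card P := (ringChar.spec F _).1 h0
  have pp : (ringChar F).Prime := (CharP.char_is_prime_or_zero F (ringChar F)).resolve_right fun e =>
    Nat.card_pos.ne' (zero_dvd_iff.1 (e ▸ hd))
  have := Fact.mk pp
  obtain ⟨x, hx⟩ := exists_prime_orderOf_dvd_card' _ hd
  rw [← orderOf_coe] at hx
  obtain ⟨M, t, ht, tM, MP, PM, cen⟩ := N.exists_cen X
  let f : M →* G := π.comp M.subtype
  have fr : f.range = P := le_antisymm (by rintro _ ⟨e, rfl⟩; exact MP e e.2) fun g hg =>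
    let ⟨e, he, k⟩ := PM g hg; ⟨⟨e, he⟩, k⟩
  have fk : f.ker ≤ center M := fun e he => mem_center_iff.2 fun e' => Subtype.ext (by
    obtain ⟨v, hv⟩ := (X.ker e).1 he
    have := cen v (hv ▸ e.2) e' e'.2
    rwa [hv] at this)
  let D := (zpowers (x : G)).comap f
  have hn : (D.index : F) ≠ 0 := fun k => hp _ pp (ringChar.Nat.cast_ringChar) (by
    rw [ringChar.spec, index_comap, fr] at k
    have e := card_mul_index ((zpowers (x : G)).subgroupOf P)
    rw [Nat.card_congr (subgroupOfEquivOfLe (zpowers_le.2 x.2)).toEquiv, Nat.card_zpowers, hx] at e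
    rw [← e, pow_two]
    exact Nat.mul_dvd_mul_left _ k)
  have : D.FiniteIndex := ⟨fun k => hn (by rw [k, Nat.cast_zero])⟩
  have hc : IsMulCommutative D :=
    ((f.comp D.subtype).codRestrict (zpowers (x : G)) fun e => e.2).isMulCommutative_of_isCyclic_of_ker_le_center
      fun e he => mem_center_iff.2 fun e' => Subtype.ext
        (mem_center_iff.1 (fk (x := e) (congrArg Subtype.val he)) e')
  obtain ⟨w, wD, wz⟩ := Tr_transfer D hc
  have cop : (ringChar F).Coprime (Nat.card R) :=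
    pp.coprime_iff_not_dvd.2 fun k => N.card ((ringChar.spec F _).2 k)
  have k1 : P ≤ (f.comp w).ker.map f := N.gen.trans (sup_le (fun r hr => ⟨⟨t r, tM r hr⟩, by
      have e1 : (⟨t r, tM r hr⟩ : M) ^ Nat.card R = 1 := Subtype.ext (by
        rw [coe_pow, ← Tr_sec_pow ht hr, show r ^ Nat.card R = 1 from
          congrArg Subtype.val (pow_card_eq_one' (x := (⟨r, hr⟩ : R))), ht.one]; rfl)
      refine orderOf_eq_one_iff.1 (Nat.eq_one_of_dvd_coprimes cop (hx ▸ orderOf_dvd_of_mem_zpowers (wD _)) ?_)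
      exact orderOf_dvd_of_pow_eq_one (by rw [← map_pow, e1, map_one]), ht.proj r hr⟩)
    (commutator_le.2 fun a ha b hb => by
      obtain ⟨a, rfl⟩ := fr.ge ha
      obtain ⟨b, rfl⟩ := fr.ge hb
      refine ⟨⁅a, b⁆, ?_, map_commutatorElement _ _ _⟩
      have : ⁅w a, w b⁆ = 1 := commutatorElement_eq_one_iff_mul_comm.2
        (congrArg Subtype.val (hc.is_comm.comm ⟨_, wD a⟩ ⟨_, wD b⟩))
      change f (w _) = 1
      rw [map_commutatorElement, this, map_one]))
  have k2 : ∀ e, w e ∈ f.ker := fun e => by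
    obtain ⟨k, hk, q⟩ := k1 (MP e e.2)
    have z : e * k⁻¹ ∈ f.ker := by
      rw [MonoidHom.mem_ker, map_mul, map_inv, q]; exact mul_inv_cancel _
    have := mul_mem (pow_mem z D.index) (show w k ∈ f.ker from hk)
    rwa [← wz _ (fk z), ← map_mul, inv_mul_cancel_right] at this
  choose δ hδ using fun e => (X.ker _).1 (k2 e)
  have δm : ∀ e e', δ (e * e') = δ e + δ e' := fun e e' => X.inj (by
    rw [X.add, hδ, hδ, hδ, map_mul]; rfl)
  have δf : ∀ e e' : M, ρ (π e) (δ e') = δ e' := fun e e' => X.inj (by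
    rw [← X.conj, cen _ (hδ e' ▸ (w e').2) e e.2, mul_inv_cancel_right])
  let c : M → E := fun e => ι (-((D.index : F)⁻¹ • δ e)) * e
  have cm : ∀ e e', c (e * e') = c e * c e' := fun e e' => by
    simp only [c]
    rw [mul_assoc, ← mul_assoc (e : E), X.comm, map_neg, map_smul, δf, ← mul_assoc, ← mul_assoc, ← X.add, δm,
      smul_add, neg_add, coe_mul, mul_assoc]
  have ck : ∀ e ∈ f.ker, c e = 1 := fun e he => by
    obtain ⟨v, hv⟩ := (X.ker e).1 he
    have : δ e = (D.index : F) • v := X.inj (by rw [hδ, wz _ (fk he), map_pow, ← Tr_pow X, hv]; rfl)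
    simp only [c]
    rw [this, inv_smul_smul₀ hn, X.neg, hv, inv_mul_cancel]
  have ce : ∀ e e', f e = f e' → c e = c e' := fun e e' h => by
    rw [← inv_mul_cancel_right e e', cm, ck _ (by
      rw [MonoidHom.mem_ker, map_mul, map_inv, h, mul_inv_cancel]), one_mul]
  classical
  choose l hl using fun g : P => fr.ge g.2
  refine ⟨fun g => if h : g ∈ P then c (l ⟨g, h⟩) else 1, fun g hg => ?_, fun a ha b hb => ?_⟩
  · rw [dif_pos hg]
    simp only [c]
    rw [map_mul, X.proj, one_mul]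
    exact hl ⟨g, hg⟩
  · rw [dif_pos ha, dif_pos hb, dif_pos (mul_mem ha hb), ← cm]
    exact ce _ _ (by rw [map_mul, hl, hl, hl])

end H95.B9
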