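import Mathlib
import Cfsg.Agent.Lib.B59.Pull
import Cfsg.Agent.Lib.B59.Tr
import Cfsg.Agent.Lib.B59.Gsl
import Cfsg.Agent.Lib.B59.GrB
import Cfsg.Agent.Lib.B59.Fx3
import Cfsg.Agent.Lib.B59.Pt2
import Cfsg.Agent.Lib.B59.Pt3
import Cfsg.Agent.Lib.Leech.Order

/-! The extension splits over the involution centraliser. -/

set_option autoImplicit false

namespace H95.B9

open Cfsg Subgroup Module H15 H16 H48.BR H95.B4

theorem Cz_card_comap {C D : Type*} [Group C] [Group D] [Finite C] {φ : C →* D}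
    (s : Function.Surjective φ) (P : Subgroup D) :
    Nat.card (P.comap φ) = Nat.card φ.ker * Nat.card P := by
  have : Finite D := Finite.of_surjective φ s
  have h1 := (P.comap φ).card_mul_index
  have h2 := φ.ker.card_mul_index
  have h3 := P.card_mul_index
  rw [index_comap_of_surjective _ s] at h1
  rw [index_ker, MonoidHom.range_eq_top.2 s, card_top, ← h3, ← h1, ← mul_assoc] at h2
  exact (Nat.eq_of_mul_eq_mul_right (Nat.pos_of_ne_zero P.index_ne_zero_of_finite) h2).symm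

theorem Cz_rel {C : Type*} [Group C] [Finite C] {K H : Subgroup C} (h : K ≤ H) {n : ℕ}
    (e : Nat.card H = Nat.card K * n) : K.relIndex H = n := by
  have h1 := (K.subgroupOf H).card_mul_index
  rw [Nat.card_congr (subgroupOfEquivOfLe h).toEquiv, e] at h1
  exact Nat.eq_of_mul_eq_mul_left Nat.card_pos h1

theorem Cz_sq {F : Type*} [Field F] (h2 : (2 : F) ≠ 0) (h3 : (3 : F) ≠ 0) {a b n : ℕ} (hn : Squarefree n)
    (p : ℕ) (hp : p.Prime) (h : (p : F) = 0) : ¬ p ^ 2 ∣ 2 ^ a * 3 ^ b * n := by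
  intro d
  have c2 : Nat.Coprime p 2 := (Nat.coprime_primes hp Nat.prime_two).2 (by rintro rfl; exact h2 (by exact_mod_cast h))
  have c3 : Nat.Coprime p 3 := (Nat.coprime_primes hp Nat.prime_three).2 (by rintro rfl; exact h3 (by exact_mod_cast h))
  have c : Nat.Coprime (p ^ 2) (2 ^ a * 3 ^ b) :=
    Nat.Coprime.mul_right (Nat.Coprime.pow _ _ c2) (Nat.Coprime.pow _ _ c3)
  have := c.dvd_of_dvd_mul_left d
  rw [sq] at this
  exact hp.not_isUnit (hn p this)

variable {F : Type*} [Field F] {C E : Type*} [Group C] [Group E] {V : Type*} [AddCommGroup V] [Module F V]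
  {π : E →* C} {ρ : Representation F C V} {ι : V → E} [Finite C] {φ : C →* Stab vU}
  {j : V →ₗ[F] GolayPt → F}

theorem Cz_pull (h2 : (2 : F) ≠ 0) (N : Nm ρ φ j) {S P R : Subgroup (Stab vU)} {m : Stab vU}
    (c : Cc F S P R m) : ∃ m', Cd ρ (S.comap φ) (P.comap φ) (R.comap φ) m' := by
  have := c.pull h2 N (K := ⊤) (fun γ _ => (N.surj γ).imp fun k hk => ⟨mem_top _, hk⟩)
    (by rw [top_inf_eq])
  simpa only [top_inf_eq] using this

theorem Cz_sf1 : Squarefree (385 : ℕ) := by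
  rw [show (385 : ℕ) = 5 * (7 * 11) by norm_num, Nat.squarefree_mul (by norm_num), Nat.squarefree_mul (by norm_num)]
  exact ⟨Nat.prime_five.squarefree, (by norm_num : Nat.Prime 7).squarefree, (by norm_num : Nat.Prime 11).squarefree⟩

theorem Cz_sf2 : Squarefree (35 : ℕ) := by
  rw [show (35 : ℕ) = 5 * 7 by norm_num, Nat.squarefree_mul (by norm_num)]
  exact ⟨Nat.prime_five.squarefree, (by norm_num : Nat.Prime 7).squarefree⟩

theorem Cz_le : PT {none, some 0, some 1} ≤ SS → PT {none, some 0, some 1} ≤ S2 :=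
  fun h _ hg => (mem_SS.1 (h hg)).1

theorem spl_C (h2 : (2 : F) ≠ 0) (h3 : (3 : F) ≠ 0) (X : Xt π ρ ι) (N : Nm ρ φ j)
    (hc : Nat.card φ.ker = 2 ^ 23) : Spl π ⊤ := by
  by_cases h11 : (11 : F) = 0
  · obtain ⟨m, c⟩ := cc2 h2
    obtain ⟨m', d⟩ := Cz_pull h2 N c
    have e : Nat.card ((PT {none, some 0}).comap φ) = 2 ^ 40 * 3 ^ 2 * 385 := by
      rw [Cz_card_comap N.surj, hc, card_PT2]; norm_num
    have sp := spl_cen X d fun p hp h => by rw [e]; exact Cz_sq h2 h3 Cz_sf1 p hp h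
    refine gaschutz X le_top ?_ sp
    have e' : Nat.card (⊤ : Subgroup C) = Nat.card ((PT {none, some 0}).comap φ) * 93150 := by
      rw [← comap_top φ, Cz_card_comap N.surj, hc, e, card_top, card_Co2]; norm_num
    rw [Cz_rel le_top e']
    intro h
    have : (2 : F) = 0 := by
      have : ((93150 : ℕ) : F) = 11 * 8468 + 2 := by norm_num
      rw [this, h11, zero_mul, zero_add] at h
      exact h
    exact h2 this
  · obtain ⟨m, c⟩ := cc3 h2
    obtain ⟨m', d⟩ := Cz_pull h2 N c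
    have e : Nat.card ((PT {none, some 0, some 1}).comap φ) = 2 ^ 38 * 3 ^ 2 * 35 := by
      rw [Cz_card_comap N.surj, hc, card_PT3]; norm_num
    have sp := spl_cen X d fun p hp h => by rw [e]; exact Cz_sq h2 h3 Cz_sf2 p hp h
    have le : (PT {none, some 0, some 1}).comap φ ≤ S2.comap φ := comap_mono (Cz_le c.PS)
    have e' : Nat.card (S2.comap φ) = Nat.card ((PT {none, some 0, some 1}).comap φ) * 1782 := by
      rw [Cz_card_comap N.surj, hc, e, card_S2]; norm_num
    have sp2 : Spl π (S2.comap φ) := by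
      refine gaschutz X le ?_ sp
      rw [Cz_rel le e', show ((1782 : ℕ) : F) = 2 * 3 ^ 4 * 11 by norm_num]
      exact mul_ne_zero (mul_ne_zero h2 (pow_ne_zero _ h3)) h11
    refine gsl X N.surj gr_co2 (S := SS.comap φ) (fun _ => Iff.rfl) (fun _ => Iff.rfl) sp2 (d.ho h2) ?_
    intro u hu hX hY v hv
    refine N.eq_zero (T := fun γ => γ ∈ SS ∧ Cu ((γ : Co0) • u) u) (mem_Fx.2 fun a ha => ?_) ?_ ?_
    · have ha : φ a = 1 := ha
      refine hv a ?_ ?_
      · rw [mem_comap, ha]; exact one_mem _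
      · rw [ha, one_smul]; exact Cu.refl _
    · rintro γ ⟨h1, h1'⟩
      obtain ⟨a, rfl⟩ := N.surj γ
      exact ⟨a, rfl, hv a h1 h1'⟩
    · intro a ha hf
      exact tri_fix h2 hu hX hY ha fun γ h h' => hf γ ⟨h, h'⟩

end H95.B9
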