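import Mathlib
import Cfsg.Agent.Lib.B59.Defs
import Cfsg.Agent.Lib.B43.Sh
import Cfsg.Agent.Lib.B43.Mo

/-! A coordinate vector fixed by the monomial stabiliser of a duad class vanishes. -/

set_option autoImplicit false

namespace H95.B9

open Cfsg Subgroup Module H15 H16 H48.BR H95.B4

variable {F : Type*} [Field F]

namespace Dd

/-- a permutation exchanging the two special points lifts to the stabiliser -/
theorem swap_mo {σ : Equiv.Perm GolayPt} (hσ : σ ∈ M24) (h1 : σ none = some 0)
    (h2 : σ (some 0) = none) : ∃ g : Stab vU, H7.B4.IsMo g σ ∅ := by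
  refine ⟨⟨mono σ hσ ∅ empty_mem_code, ?_⟩, hσ, empty_mem_code, rfl⟩
  rw [mem_Stab]
  apply Subtype.ext
  rw [coe_mono_smul, coe_U, signedPerm_v44, h1, h2, if_neg (Finset.notMem_empty _),
    if_neg (Finset.notMem_empty _), v44_comm]

theorem fin (h2 : (2 : F) ≠ 0) {u : leechLattice} {a : GolayPt → F} (ha : a none + a (some 0) = 0)
    (hf : ∀ γ ∈ MM, Cu ((γ : Co0) • u) u → Mp γ a a)
    (hK : ∀ p, p ≠ none → p ≠ some 0 → ∃ c : H7.B4.EC, p ∈ c.1 ∧ Cu ((H7.B4.ee c : Co0) • u) u)
    (hS : ∃ (g : Stab vU) (σ : Equiv.Perm GolayPt), H7.B4.IsMo g σ ∅ ∧ σ none = some 0 ∧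
      Cu ((g : Co0) • u) u) : a = 0 := by
  obtain ⟨g, σ, hg, h1, hc⟩ := hS
  have e := hf g hg.mem hc σ ∅ hg none
  rw [h1, H7.B4.sg, if_neg (Finset.notMem_empty _), one_mul] at e
  have e0 : a none = 0 := by
    have : (2 : F) * a none = 0 := by linear_combination ha - e
    exact (mul_eq_zero.1 this).resolve_left h2
  funext p
  by_cases p1 : p = none
  · rw [p1, e0]; rfl
  by_cases p2 : p = some 0
  · rw [p2, e, e0]; rfl
  obtain ⟨c, hp, hc⟩ := hK p p1 p2
  have k := hf _ (H7.B4.isMo_ee c).mem hc 1 c.1 (H7.B4.isMo_ee c) p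
  rw [Equiv.Perm.one_apply, H7.B4.sg, if_pos hp] at k
  have : (2 : F) * a p = 0 := by linear_combination k
  exact (mul_eq_zero.1 this).resolve_left h2

/-- a codeword avoiding the two special points with a prescribed trace -/
theorem exists_EC {S P : Finset GolayPt} (hP : P ⊆ S) (hS : S.card ≤ 5) (h1 : none ∉ P)
    (h2 : some 0 ∉ P) : ∃ c : H7.B4.EC, ∀ x ∈ S, x ∈ c.1 ↔ x ∈ P := by
  have hc : (insert none (insert (some 0) S)).card < 8 :=
    lt_of_le_of_lt ((Finset.card_insert_le _ _).trans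
      (Nat.add_le_add_right ((Finset.card_insert_le _ _).trans (Nat.add_le_add_right hS 1)) 1))
      (by norm_num)
  obtain ⟨c, hc, e⟩ := exists_code_inter_eq_of_card_lt (insert none (insert (some 0) S)) P
    (hP.trans ((Finset.subset_insert _ _).trans (Finset.subset_insert _ _))) hc
  have hm : ∀ x ∈ insert none (insert (some 0) S), x ∈ c ↔ x ∈ P := fun x hx => by
    rw [← e, Finset.mem_inter, and_iff_left hx]
  exact ⟨⟨c, hc, fun h => h1 ((hm _ (by simp)).1 h), fun h => h2 ((hm _ (by simp)).1 h)⟩,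
    fun x hx => hm x (by simp [hx])⟩

theorem not_cu {w : leechLattice} (hw : sqNorm (w : GolayPt → ℤ) = 32)
    (h0 : (w : GolayPt → ℤ) none = 0) : ¬ Cu 0 w ∧ ¬ Cu (e8 none) w := by
  have u0 : (vU : GolayPt → ℤ) none = 4 := by rw [coe_U, v44_apply]; simp
  have u1 : (vUP : GolayPt → ℤ) none = 4 := by rw [coe_UP, v44_apply]; simp
  have key : ∀ v : leechLattice, sqNorm (v : GolayPt → ℤ) = 32 → (v : GolayPt → ℤ) none = 4 →
      ¬ Cg v w := fun v hv h4 h => by
    rcases h.short (by omega) (by omega) with e | e | e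
    · rw [e, h0] at h4; omega
    · rw [e, AddSubgroup.coe_neg, Pi.neg_apply, h0] at h4; omega
    · omega
  refine ⟨fun h => h.elim (Mon.not_cg_zero (Or.inl hw)) fun h => ?_, fun h => h.elim (fun h => ?_) fun h => ?_⟩
  · rw [zero_add] at h
    exact key _ norm_U u0 h
  · have n := sqNorm_e8 none
    have := h.norm_eq (by omega) (by omega)
    omega
  · exact key _ norm_UP u1 (H99.BC.cg_e8_U.symm.trans h)

theorem not_oct {u : leechLattice} {o s : Finset GolayPt} (ho : o ∈ octads)
    (e : (u : GolayPt → ℤ) = H16.sgn s (rep 0 o))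
    (hE : ∀ e ∈ EE, Cu ((e : Co0) • u) u ∨ Cu ((e : Co0) • u) (u + e8 none)) : False := by
  have h8 : o.card = 8 := ((H16.mem_octads_iff _).1 ho).2
  have hc : 1 < ((o.erase none).erase (some 0)).card := by
    have a := Finset.pred_card_le_card_erase (s := o) (a := none)
    have b := Finset.pred_card_le_card_erase (s := o.erase none) (a := some 0)
    omega
  obtain ⟨p, hp, q, hq, hpq⟩ := Finset.one_lt_card.1 hc
  simp only [Finset.mem_erase] at hp hq
  have hP : ({p, q} : Finset GolayPt) ⊆ o := by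
    intro x hx
    rcases Finset.mem_insert.1 hx with rfl | hx
    · exact hp.2.2
    · rw [Finset.mem_singleton.1 hx]; exact hq.2.2
  have hoS : o ⊆ insert none (insert (some 0) o) :=
    (Finset.subset_insert _ _).trans (Finset.subset_insert _ _)
  have hS : (insert none (insert (some 0) o)).card < 12 := by
    have a := Finset.card_insert_le none (insert (some 0) o)
    have b := Finset.card_insert_le (some 0) o
    omega
  obtain ⟨c, hcc, hco⟩ := exists_code_inter_eq_octad ho _ {p, q} hoS (hP.trans hoS) hS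
    (by rw [Finset.inter_eq_right.2 hP, Finset.card_pair hpq])
  have hm : ∀ x ∈ insert none (insert (some 0) o), x ∈ c ↔ x = p ∨ x = q := fun x hx => by
    have : x ∈ c ∩ insert none (insert (some 0) o) ↔ x ∈ ({p, q} : Finset GolayPt) := by rw [hco]
    rwa [Finset.mem_inter, and_iff_left hx, Finset.mem_insert, Finset.mem_singleton] at this
  have c1 : none ∉ c := fun h => ((hm _ (by simp)).1 h).elim hp.2.1.symm hq.2.1.symm
  have c2 : some 0 ∉ c := fun h => ((hm _ (by simp)).1 h).elim hp.1.symm hq.1.symm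
  let C : H7.B4.EC := ⟨c, hcc, c1, c2⟩
  set w : leechLattice := u + -((H7.B4.ee C : Co0) • u) with hwd
  have hw : (w : GolayPt → ℤ) = v44 p q (if p ∈ s then -1 else 1) (if q ∈ s then -1 else 1) := by
    funext k
    rw [hwd, AddSubgroup.coe_add, AddSubgroup.coe_neg, Pi.add_apply, Pi.neg_apply, H7.B4.coe_ee,
      eps_smul_apply, e, oct_apply, v44_apply]
    by_cases k1 : k = p
    · subst k1
      rw [if_pos hp.2.2, if_pos ((hm k (by simp [hp.2.2])).2 (Or.inl rfl)), if_pos rfl, if_neg hpq]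
      split_ifs <;> norm_num
    by_cases k2 : k = q
    · subst k2
      rw [if_pos hq.2.2, if_pos ((hm k (by simp [hq.2.2])).2 (Or.inr rfl)), if_pos rfl, if_neg k1]
      split_ifs <;> norm_num
    rw [if_neg k1, if_neg k2]
    by_cases k3 : k ∈ o
    · rw [if_neg fun h => ((hm k (by simp [k3])).1 h).elim k1 k2]
      ring
    · rw [if_neg k3]
      split_ifs <;> norm_num
  have hn : sqNorm (w : GolayPt → ℤ) = 32 := by
    rw [hw]
    exact sqNorm_v44 hpq (by split_ifs <;> simp) (by split_ifs <;> simp)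
  have h0 : (w : GolayPt → ℤ) none = 0 := by
    rw [hw, v44_apply, if_neg hp.2.1.symm, if_neg hq.2.1.symm, add_zero]
  obtain ⟨n1, n2⟩ := not_cu hn h0
  rcases hE (H7.B4.ee C) (H7.B4.ee_mem C) with h | h
  · have := h.add (Cu.refl (-((H7.B4.ee C : Co0) • u)))
    rw [add_neg_cancel] at this
    exact n1 this
  · have := h.add (Cu.refl (-((H7.B4.ee C : Co0) • u) + -e8 none))
    rw [← add_assoc, add_neg_cancel, zero_add, show u + e8 none + (-((H7.B4.ee C : Co0) • u) + -e8 none)
      = w by rw [hwd]; abel] at this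
    exact n2 ((cu_neg _).trans this)

end Dd

theorem duad_fix (h2 : (2 : F) ≠ 0) {u : leechLattice}
    (hu : Cu 0 u ∨ (sqNorm (u : GolayPt → ℤ) = 32 ∧ dotInt (vU : GolayPt → ℤ) (u : GolayPt → ℤ) = 0))
    (h8 : Ad u (e8 none)) (hE : ∀ e ∈ EE, Cu ((e : Co0) • u) u ∨ Cu ((e : Co0) • u) (u + e8 none))
    {a : GolayPt → F} (ha : a none + a (some 0) = 0)
    (hf : ∀ γ ∈ MM, Cu ((γ : Co0) • u) u → Mp γ a a) : a = 0 := by
  rcases hu with hu | ⟨hn, hd⟩
  · have all : ∀ γ : Stab vU, Cu ((γ : Co0) • u) u := fun γ => by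
      have := hu.smul γ
      rw [smul_zero] at this
      exact this.symm.trans hu
    refine Dd.fin h2 ha hf (fun p p1 p2 => ?_) ?_
    · obtain ⟨c, hc⟩ := Dd.exists_EC (S := {p}) (P := {p}) subset_rfl (by simp) (by simpa using p1.symm)
        (by simpa using p2.symm)
      exact ⟨c, (hc p (by simp)).2 (by simp), all _⟩
    · obtain ⟨σ, hσ, s1, s2⟩ := M24_trans2 Sh.ne0 Sh.ne0.symm
      obtain ⟨g, hg⟩ := Dd.swap_mo hσ s1 s2
      exact ⟨g, σ, hg, s1, all g⟩
  rw [Sh.dot_U] at hd
  rcases min_shape u.2 hn with ⟨i, j, hij, s, t, hs, ht, e⟩ | ⟨o, ho, s, -, -, e⟩ | ⟨c, -, j, e⟩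
  · have hcase : (i = none ∧ j = some 0 ∧ t = -s) ∨ (i = some 0 ∧ j = none ∧ t = -s) ∨
        (i ≠ none ∧ i ≠ some 0 ∧ j ≠ none ∧ j ≠ some 0) := by
      rw [e, v44_apply, v44_apply] at hd
      have n0 := Sh.ne0
      by_cases i1 : none = i
      · subst i1
        by_cases j2 : some 0 = j
        · subst j2
          refine Or.inl ⟨rfl, rfl, ?_⟩
          rw [if_pos rfl, if_neg n0, if_neg n0.symm, if_pos rfl] at hd
          omega
        · rw [if_pos rfl, if_neg hij, if_neg n0.symm, if_neg j2] at hd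
          omega
      by_cases i2 : some 0 = i
      · subst i2
        by_cases j1 : none = j
        · subst j1
          refine Or.inr (Or.inl ⟨rfl, rfl, ?_⟩)
          rw [if_neg n0, if_pos rfl, if_pos rfl, if_neg n0.symm] at hd
          omega
        · rw [if_neg n0, if_neg j1, if_pos rfl, if_neg hij] at hd
          omega
      rw [if_neg i1, if_neg i2] at hd
      refine Or.inr (Or.inr ⟨Ne.symm i1, Ne.symm i2, fun j1 => ?_, fun j2 => ?_⟩)
      · subst j1
        rw [if_pos rfl, if_neg n0.symm] at hd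
        omega
      · subst j2
        rw [if_neg n0, if_pos rfl] at hd
        omega
    have act : ∀ (g : Stab vU) σ d, H7.B4.IsMo g σ d → (((g : Co0) • u : leechLattice) : GolayPt → ℤ) =
        v44 (σ i) (σ j) (if σ i ∈ d then -s else s) (if σ j ∈ d then -t else t) := by
      rintro g σ d ⟨hσ, hd, hg⟩
      rw [hg, coe_mono_smul, e, signedPerm_v44]
    have pos : ∀ g : Stab vU, (((g : Co0) • u : leechLattice) : GolayPt → ℤ) = v44 i j s t →
        Cu ((g : Co0) • u) u := fun g h => by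
      rw [show (g : Co0) • u = u from Subtype.ext (h.trans e.symm)]
      exact Cu.refl u
    have neg : ∀ g : Stab vU, (((g : Co0) • u : leechLattice) : GolayPt → ℤ) = v44 i j (-s) (-t) →
        Cu ((g : Co0) • u) u := fun g h => by
      have : (g : Co0) • u = -u := by
        apply Subtype.ext
        rw [h, AddSubgroup.coe_neg, e]
        funext k
        rw [Pi.neg_apply, v44_apply, v44_apply]
        split_ifs <;> ring
      rw [this]
      exact (cu_neg u).symm
    refine Dd.fin h2 ha hf (fun p p1 p2 => ?_) ?_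
    · by_cases hp : p = i ∨ p = j
      · have hh : i ≠ none ∧ i ≠ some 0 ∧ j ≠ none ∧ j ≠ some 0 := by
          rcases hcase with ⟨rfl, rfl, -⟩ | ⟨rfl, rfl, -⟩ | h
          · exact (hp.elim p1 p2).elim
          · exact (hp.elim p2 p1).elim
          · exact h
        obtain ⟨c, hc⟩ := Dd.exists_EC (S := {i, j}) (P := {i, j}) subset_rfl
          (Finset.card_le_two.trans (by norm_num)) (by simp [hh.1.symm, hh.2.2.1.symm])
          (by simp [hh.2.1.symm, hh.2.2.2.symm])
        have ci : i ∈ c.1 := (hc i (by simp)).2 (by simp)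
        have cj : j ∈ c.1 := (hc j (by simp)).2 (by simp)
        refine ⟨c, hp.elim (fun h => h ▸ ci) fun h => h ▸ cj, neg _ ?_⟩
        rw [act _ _ _ (H7.B4.isMo_ee c), Equiv.Perm.one_apply, Equiv.Perm.one_apply, if_pos ci, if_pos cj]
      · have pi : i ≠ p := fun h => hp (Or.inl h.symm)
        have pj : j ≠ p := fun h => hp (Or.inr h.symm)
        obtain ⟨c, hc⟩ := Dd.exists_EC (S := {i, j, p}) (P := {p}) (by simp)
          (Finset.card_le_three.trans (by norm_num)) (by simpa using p1.symm) (by simpa using p2.symm)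
        have ci : i ∉ c.1 := fun h => pi (by simpa using (hc i (by simp)).1 h)
        have cj : j ∉ c.1 := fun h => pj (by simpa using (hc j (by simp)).1 h)
        refine ⟨c, (hc p (by simp)).2 (by simp), pos _ ?_⟩
        rw [act _ _ _ (H7.B4.isMo_ee c), Equiv.Perm.one_apply, Equiv.Perm.one_apply, if_neg ci, if_neg cj]
    · rcases hcase with ⟨rfl, rfl, rfl⟩ | ⟨rfl, rfl, rfl⟩ | ⟨i1, i2, j1, j2⟩
      · obtain ⟨σ, hσ, s1, s2⟩ := M24_trans2 Sh.ne0 Sh.ne0.symm
        obtain ⟨g, hg⟩ := Dd.swap_mo hσ s1 s2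
        refine ⟨g, σ, hg, s1, neg _ ?_⟩
        rw [act _ _ _ hg, s1, s2, if_neg (Finset.notMem_empty _), if_neg (Finset.notMem_empty _),
          v44_comm, neg_neg]
      · obtain ⟨σ, hσ, s1, s2⟩ := M24_trans2 Sh.ne0 Sh.ne0.symm
        obtain ⟨g, hg⟩ := Dd.swap_mo hσ s1 s2
        refine ⟨g, σ, hg, s1, neg _ ?_⟩
        rw [act _ _ _ hg, s1, s2, if_neg (Finset.notMem_empty _), if_neg (Finset.notMem_empty _),
          v44_comm, neg_neg]
      · obtain ⟨σ, hσ, hs⟩ := M24_trans (k := 4) (by norm_num) _ _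
          (injective_vec4 Sh.ne0 i1.symm j1.symm i2.symm j2.symm hij)
          (injective_vec4 Sh.ne0.symm i2.symm j2.symm i1.symm j1.symm hij)
        have s1 : σ none = some 0 := hs 0
        have s2 : σ (some 0) = none := hs 1
        have s3 : σ i = i := hs 2
        have s4 : σ j = j := hs 3
        obtain ⟨g, hg⟩ := Dd.swap_mo hσ s1 s2
        refine ⟨g, σ, hg, s1, pos _ ?_⟩
        rw [act _ _ _ hg, s3, s4, if_neg (Finset.notMem_empty _), if_neg (Finset.notMem_empty _)]
  · exact (Dd.not_oct ho e hE).elim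
  · exfalso
    rw [Ad, coe_e8, dotInt_single_right, e, odd_apply] at h8
    split_ifs at h8 <;> omega

end H95.B9
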