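import Mathlib
import Cfsg.Agent.Lib.B59.Defs
import Cfsg.Agent.Lib.B43.Z0
import Cfsg.Agent.Lib.B43.Pl
import Cfsg.Agent.Lib.B43.CoD

set_option autoImplicit false

namespace H95.B9

open Cfsg Subgroup Module H15 H16 H48.BR H95.B4

variable {F : Type*} [Field F] {G E : Type*} [Group G] [Group E] {V : Type*} [AddCommGroup V] [Module F V]
  {π : E →* G} {ρ : Representation F G V} {ι : V → E} [Finite G] [FiniteDimensional F V]
  {z s σ x : G} {Q Q' : Subgroup G} {φ : centralizer ({z} : Set G) →* Stab vU}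
  {cls : leechLattice → G → Prop}

theorem nat_co (h2 : (2 : F) ≠ 0) (r : Representation F (Stab vU) V) (hd : finrank F V ≤ 23)
    (n : ∃ g v, r g v ≠ v) : ∃ j : V →ₗ[F] GolayPt → F, (∀ v, j v = 0 → v = 0) ∧
      (∀ v, j v none + j v (some 0) = 0) ∧ ∀ g v, Mp g (j v) (j (r g v)) := by
  classical
  obtain ⟨b, a⟩ := H7.B4.exists_fr h2 hd n
  obtain ⟨B, hB⟩ := a.basis h2
  let δ : GolayPt → GolayPt → F := fun i k =>
    if k = i then 1 else if (i = none ∨ i = some 0) ∧ (k = none ∨ k = some 0) then -1 else 0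
  let j : V →ₗ[F] GolayPt → F := B.constr F fun i => δ i.1
  have jB : ∀ i, j (B i) = δ i.1 := fun i => B.constr_basis F _ i
  have jb : ∀ i, j (b i) = δ i := fun i => by
    by_cases e : i = some 0
    · rw [e, a.neg, map_neg, ← hB ⟨none, by simp⟩, jB]
      funext k
      simp only [δ, Pi.neg_apply]
      by_cases k1 : k = none
      · subst k1; simp
      · by_cases k2 : k = some 0
        · subst k2; simp
        · simp [k1, k2]
    · rw [← hB ⟨i, e⟩, jB]
  refine ⟨j, fun v h => ?_, fun v => ?_, fun g v σ d m k => ?_⟩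
  · refine B.ext_elem fun i => ?_
    have : B.coord i = LinearMap.proj i.1 ∘ₗ j := B.ext fun i' => by
      rw [LinearMap.comp_apply, jB, LinearMap.proj_apply, Basis.coord_apply, Basis.repr_self,
        Finsupp.single_apply]
      simp only [δ]
      by_cases e : i' = i
      · subst e; simp
      · have e' : ¬ i.1 = i'.1 := fun h => e (Subtype.ext h.symm)
        rw [if_neg e, if_neg e', if_neg]
        rintro ⟨h1 | h1, h3 | h3⟩
        exacts [e' (h3.trans h1.symm), i.2 h3, i'.2 h1, i'.2 h1]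
    have h' := LinearMap.congr_fun this v
    rw [LinearMap.comp_apply, h, map_zero, Basis.coord_apply] at h'
    rw [h', map_zero, Finsupp.zero_apply]
  · let p : GolayPt → (GolayPt → F) →ₗ[F] F := fun i => LinearMap.proj i
    have : p none ∘ₗ j + p (some 0) ∘ₗ j = 0 :=
      B.ext fun i => by
        change j (B i) none + j (B i) (some 0) = 0
        rw [jB]
        simp only [δ]
        by_cases e : i.1 = none
        · rw [e]; simp
        · have e1 : ¬ none = i.1 := fun h => e h.symm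
          have e2 : ¬ some 0 = i.1 := fun h => i.2 h.symm
          simp [e, e1, e2, i.2]
    exact LinearMap.congr_fun this v
  · have P : ∀ i, (σ i = none ∨ σ i = some 0) ↔ (i = none ∨ i = some 0) := fun i => by
      rcases m.U.2.2 with u | u
      · nth_rewrite 1 [← u.1, ← u.2]
        simp only [EmbeddingLike.apply_eq_iff_eq]
      · have h1 : σ i = none ↔ i = some 0 := by rw [← u.2, EmbeddingLike.apply_eq_iff_eq]
        have h3 : σ i = some 0 ↔ i = none := by rw [← u.1, EmbeddingLike.apply_eq_iff_eq]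
        rw [h1, h3, or_comm]
    have S : ∀ i, (i = none ∨ i = some 0) → H7.B4.sg F d (σ i) = 1 := fun i hi => by
      refine if_neg ?_
      rcases (P i).2 hi with e | e <;> rw [e]
      exacts [m.U.1, m.U.2.1]
    have : LinearMap.proj (σ k) ∘ₗ j ∘ₗ r g = H7.B4.sg F d (σ k) • (LinearMap.proj k ∘ₗ j) :=
      B.ext fun i => by
        rw [LinearMap.smul_apply, LinearMap.comp_apply, LinearMap.comp_apply, LinearMap.comp_apply, jB, hB,
          a.law g σ d m, map_smul, jb, LinearMap.proj_apply, LinearMap.proj_apply, Pi.smul_apply]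
        simp only [δ, EmbeddingLike.apply_eq_iff_eq, P]
        by_cases e : k = i.1
        · rw [e]
        · rw [if_neg e]
          split_ifs with c
          · rw [S _ c.1, S _ c.2]
          · rw [smul_zero, smul_zero]
    exact LinearMap.congr_fun this v

theorem exists_j (h2 : (2 : F) ≠ 0) (B : Bs z s σ x Q Q' φ cls) (D : Dm ρ z Q cls) (hd : finrank F V ≤ 4371) :
    ∃ j, Nm (C := centralizer ({z} : Set G)) (ρ.comp (centralizer ({z} : Set G)).subtype) φ j := by
  obtain ⟨r, hr⟩ := z0_rep B.M ρ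
  have t := D.tot
  obtain ⟨c, hc, v, hv, n⟩ := B.nontriv h2 D
  obtain ⟨j₀, j1, j2, j3⟩ := nat_co h2 r (by omega)
    ⟨φ ⟨c, mem_cent_iff.2 hc⟩, ⟨v, hv⟩, fun e => n ((hr _ _).symm.trans (congrArg Subtype.val e))⟩
  obtain ⟨j, hj⟩ := LinearMap.exists_extend j₀
  have k : ∀ w : Fx ρ Q, j w = j₀ w := fun w => LinearMap.congr_fun hj w
  have fx : ∀ w ∈ Fx (ρ.comp (centralizer ({z} : Set G)).subtype) φ.ker, w ∈ Fx ρ Q := fun w hw =>
    mem_Fx.2 fun q hq => mem_Fx.1 hw ⟨q, mem_cent_iff.2 (B.M.h.central q hq)⟩ ((B.M.ker _).2 hq)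
  have p2 : IsPGroup 2 Q := IsPGroup.of_card B.M.card
  refine ⟨j, B.M.surj, fun a => ?_, fun w hw e => ?_, fun w hw => ?_, fun a w hw => ?_⟩
  · obtain ⟨m, hm⟩ := p2 ⟨a.1.1, (B.M.ker _).1 a.2⟩
    have hm' : a.1.1 ^ 2 ^ m = 1 := congrArg Subtype.val hm
    exact ⟨m, Subtype.ext (Subtype.ext hm')⟩
  · exact congrArg Subtype.val (j1 ⟨w, fx w hw⟩ ((k ⟨w, fx w hw⟩).symm.trans e))
  · have := j2 ⟨w, fx w hw⟩
    rwa [← k] at this
  · have := j3 (φ a) ⟨w, fx w hw⟩
    rwa [← k, ← k, hr] at this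

end H95.B9
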