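import Mathlib
import Cfsg.Agent.Lib.B59.Nat
import Cfsg.Agent.Lib.B59.Pull
import Cfsg.Agent.Lib.B59.Sc
import Cfsg.Agent.Lib.B59.Cen
import Cfsg.Agent.Lib.B59.Pt2
import Cfsg.Agent.Lib.B43.ClA
import Cfsg.Agent.Lib.YM.Fr

set_option autoImplicit false

namespace H95.B9

open Cfsg Subgroup Module H15 H16 H48.BR H95.B4

variable {F : Type*} [Field F] {G E : Type*} [Group G] [Group E] {V : Type*} [AddCommGroup V] [Module F V]
  {π : E →* G} {ρ : Representation F G V} {ι : V → E} [Finite G] [FiniteDimensional F V]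
  {z s σ x : G} {Q Q' : Subgroup G} {φ : centralizer ({z} : Set G) →* Stab vU}
  {cls : leechLattice → G → Prop}

theorem ho_zs (h2 : (2 : F) ≠ 0) (B : Bs z s σ x Q Q' φ cls) (D : Dm ρ z Q cls) (hd : finrank F V ≤ 4371) :
    Ho ρ (centralizer {z} ⊓ centralizer {s}) := by
  obtain ⟨j, N⟩ := exists_j h2 B D hd
  obtain ⟨m, c⟩ := cc2 (F := F) h2
  obtain ⟨m', N'⟩ := c.pull h2 N (K := (centralizer {s}).subgroupOf (centralizer {z}))
    (fun γ hγ => by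
      obtain ⟨k, k1, k2⟩ := B.lift hγ
      exact ⟨k, mem_centralizer_singleton_iff.2 k1, k2⟩) (fun v hv => by
      have hq : ∀ a ∈ (Q ⊓ centralizer {s} : Subgroup G), ρ a v = v := fun a ha =>
        mem_Fx.1 hv ⟨a, mem_centralizer_singleton_iff.2 (B.M.h.central a ha.1)⟩ ⟨ha.2, (B.M.ker _).2 ha.1⟩
      have hz := hq z ⟨B.M.h.mem, mem_centralizer_singleton_iff.2 (B.M.h.central s B.p.sQ).symm⟩
      exact mem_Fx.2 fun a ha => mem_Fx.1 (B.fx_of h2 D hz (mem_Fx.2 hq)) a ((B.M.ker a).1 ha))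
  refine Ho.of_sub inf_le_left ?_
  have e : (centralizer {z} ⊓ centralizer {s} : Subgroup G).subgroupOf (centralizer {z}) =
      (centralizer {s}).subgroupOf (centralizer {z}) ⊓ MM.comap φ :=
    Subgroup.ext fun k => ⟨fun h => ⟨h.2, mem_MM.2 (B.M.cu_of_comm B.hs (mem_centralizer_singleton_iff.1 h.2))⟩,
      fun h => ⟨k.2, h.1⟩⟩
  rw [e]
  exact N'.ho h2

theorem bs_of (M : Bab z Q φ cls) {w : G} (hw : w ∈ Q) (c : IsConj z w) (n : w ≠ z) :
    ∃ g σ x, g * z = z * g ∧ Bs z (g * w * g⁻¹) σ x Q (H77.YM.QW Q z (g * w * g⁻¹)) φ cls := by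
  obtain ⟨c', hc⟩ := M.exists_frame hw c n
  obtain ⟨g, rfl⟩ := isConj_iff.1 c
  have cz := mem_centralizer_singleton_iff.1 c'.2
  have e : c' * (g * z * g⁻¹) * (c' : G)⁻¹ = c' * g * z * (c' * g)⁻¹ := by group
  refine ⟨c', ?_⟩
  rw [e] at hc ⊢
  have n' : c' * g * z * (c' * g)⁻¹ ≠ z := fun f => n (by
    calc _ = (c' : G)⁻¹ * (c' * g * z * (c' * g)⁻¹) * c' := by group
      _ = _ := by rw [f, mul_assoc, ← cz, inv_mul_cancel_left])
  have p := M.pair (M.mem hc) n'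
  obtain ⟨σ, T⟩ := H7.ML.exists_tau p
  obtain ⟨x, hx⟩ := M.ex_elt vX (by rw [Pp, dotInt_comm, dot_UX])
  rw [H77.YM.QW_eq M.h]
  exact ⟨σ, x, cz, M, hc, p, M.card_conj _, T, hx⟩

theorem exists_sec (h2 : (2 : F) ≠ 0) (X : Xt π ρ ι) (M : Bab z Q φ cls) (D : Dm ρ z Q cls)
    (hd : finrank F V ≤ 4371) {t : G → E} (ht : Sec π (centralizer {z}) t) {w : G} (hw : w ∈ Q)
    (c : IsConj z w) (n : w ≠ z) :
    ∃ t', Sec π (centralizer {w}) t' ∧ ∀ g ∈ centralizer ({z} : Set G) ⊓ centralizer {w}, t' g = t g := by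
  obtain ⟨g, σ, x, gz, B⟩ := bs_of M hw c n
  obtain ⟨h, rfl⟩ := isConj_iff.1 c
  refine Sec.agree X ht (Spl.conj X ⟨t, ht⟩ h fun a ha => mem_centralizer_singleton_iff.2 ?_)
    ((ho_zs h2 B D hd).conj g⁻¹ fun a => ?_)
  · calc _ = h⁻¹ * (a * (h * z * h⁻¹)) * h := by group
      _ = _ := by rw [mem_centralizer_singleton_iff.1 ha]; group
  · generalize h * z * h⁻¹ = w
    have k : ∀ y : G, g⁻¹⁻¹ * a * g⁻¹ ∈ centralizer {g * y * g⁻¹} ↔ a ∈ centralizer {y} := fun y => by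
      rw [mem_centralizer_singleton_iff, mem_centralizer_singleton_iff, inv_inv, conj_mul, conj_mul,
        mul_left_inj, mul_right_inj]
    rw [mem_inf, mem_inf, k, ← k z, gz, mul_inv_cancel_right]

end H95.B9
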