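import Mathlib
import Cfsg.Agent.Lib.B59.Nk
import Cfsg.Agent.Lib.B59.Dd
import Cfsg.Agent.Lib.B43.Es
import Cfsg.Agent.Lib.LargeExtra.Setting

set_option autoImplicit false
set_option linter.unusedSectionVars false

namespace H95.B9

open Cfsg Subgroup Module H15 H16 H48.BR H95.B4

variable {F : Type*} [Field F] {G E : Type*} [Group G] [Group E] {V : Type*} [AddCommGroup V] [Module F V]
  {π : E →* G} {ρ : Representation F G V} {ι : V → E} [Finite G] [FiniteDimensional F V]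
  {z s σ x : G} {Q Q' : Subgroup G} {φ : centralizer ({z} : Set G) →* Stab vU}
  {cls : leechLattice → G → Prop}

theorem Fy_not_conj (M : Bab z Q φ cls) (hx : cls vX x) {y : G} (h : TwG cls y) : ¬ IsConj z y := fun c => by
  have t : TwG cls x := ⟨vX, tw_X, hx⟩
  obtain ⟨k, -, e⟩ := h.trans M t
  obtain ⟨g, rfl⟩ := isConj_iff.1 (c.trans (isConj_iff.2 ⟨k, e⟩))
  exact H99.BC.not_ta M (M.pair (t.mem M) (t.ne M).2) (M.card_conj g) hx

omit [Finite G] in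
theorem Fy_cases (h : ES Q z) (hs : s ∈ Q) (ss : s * s = 1) {y : G} (hy : y ∈ Q) (hx : x ∈ Q)
    (k : ∀ q ∈ Q, q * s = s * q → q * y = y * q → q * x = x * q) :
    ∃ t, (t = 1 ∨ t = z ∨ t = s ∨ t = z * s) ∧ (x = t ∨ y = x * t) := by
  by_cases a : ∀ q ∈ Q, q * s = s * q → q * x = x * q
  · exact ⟨x, h.mem_of_centralizes hs ss hx a, .inl rfl⟩
  push Not at a
  obtain ⟨a, ha, as, ax⟩ := a
  refine ⟨x⁻¹ * y, h.mem_of_centralizes hs ss (mul_mem (inv_mem hx) hy) fun q hq qs =>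
    Es_cent h hq hx hy ⟨fun qx => ?_, k q hq qs⟩, .inr (by group)⟩
  by_contra qy
  have := k _ (mul_mem ha hq) (Commute.mul_left as qs).eq
    (h.mul_comm_of_ne hy ha hq (fun e => ax (k a ha as e)) qy)
  rw [mul_assoc, qx, ← mul_assoc, ← mul_assoc, mul_left_inj] at this
  exact ax this

theorem fx_cent (h2 : (2 : F) ≠ 0) (B : Bs z s σ x Q Q' φ cls) (D : Dm ρ z Q cls) {y : G} (hy : y ∈ Q ⊓ Q')
    (c : IsConj z y) {v : V} (hz : ρ z v = v)
    (hv : ∀ q ∈ Q, q * s = s * q → q * y = y * q → ρ q v = v) : v ∈ Fx ρ Q := by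
  have h := B.p.h.toES
  have : Finite Q := inferInstance
  refine le_of_W (U := Fx ρ {q | q ∈ Q ∧ q * s = s * q ∧ q * y = y * q} ⊓ Fx ρ {z}) h2 h inf_le_right
    (Es_inv h (fun a ha => ha.1) _) (fun t ht u hu hw => ?_)
    ⟨mem_Fx.2 fun q hq => hv q hq.1 hq.2.1 hq.2.2, mem_Fx1.2 hz⟩
  by_cases u0 : u = 0
  · exact u0 ▸ zero_mem _
  rcases D.supp t ht (fun e => u0 ((Submodule.mem_bot F).1 (e ▸ hw))) with rfl | rfl | tw
  · rwa [W_one] at hw
  · rwa [← one_mul t, W_mul h.central, W_one] at hw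
  have nc := fun y => Fy_not_conj (y := y) B.M B.hx
  have zz : ∀ a : G, a * z * z = a := fun a => by rw [mul_assoc, h.sq, mul_one]
  have sy : ¬ TwG cls (y * s) := fun k => by
    obtain ⟨b, -, e⟩ := B.p.h'.exists_conj hy.2 (fun e => h.ne_one (by simpa [e] using c))
      fun e => (k.ne B.M).1 (by rw [e, B.p.h'.sq])
    exact nc _ k (c.trans (isConj_iff.2 ⟨b, e⟩))
  obtain ⟨r, hr, e⟩ := Fy_cases h B.p.sQ B.p.h'.sq hy.1 ht fun q hq qs qy => by
    by_contra n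
    refine u0 (Wt.eq_zero hu.1 (Wt.mono hw fun a ha => ha.1) (a := q) ⟨hq, qs, qy⟩ fun e => ?_)
    exact n ((sg_inj h2 ((sg_pos trivial).trans e)).1 trivial)
  have tz := tw.mul_z B.M
  rcases e with rfl | rfl <;> rcases hr with rfl | rfl | rfl | e
  · exact ((tw.ne B.M).1 rfl).elim
  · exact ((tw.ne B.M).2 rfl).elim
  · exact (B.not_s tw).elim
  · rw [e, B.p.zs, zz] at tz
    exact (B.not_s tz).elim
  · exact (nc _ tw (by rwa [mul_one] at c)).elim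
  · exact (nc _ tz c).elim
  · exact (sy (by rwa [mul_assoc, B.p.h'.sq, mul_one])).elim
  · exact (sy (by rwa [e, mul_assoc, mul_assoc, B.p.h'.sq, mul_one])).elim

theorem fix_zsy (h2 : (2 : F) ≠ 0) (B : Bs z s σ x Q Q' φ cls) (D : Dm ρ z Q cls) (hd : finrank F V ≤ 4371)
    {y : G} (hy : y ∈ Q ⊓ Q') (c : IsConj z y) :
    ∀ v ∈ Fx ρ (centralizer {z} ⊓ centralizer {s} ⊓ centralizer {y} : Subgroup G), v = 0 := by
  intro v hv
  have M := B.M
  have h := B.p.h.toES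
  have hv : ∀ g, g * z = z * g → g * s = s * g → g * y = y * g → ρ g v = v := fun g a b c =>
    mem_Fx.1 hv g ⟨⟨mem_cent_iff.2 a, mem_cent_iff.2 b⟩, mem_cent_iff.2 c⟩
  have hQ := mem_Fx.1 (fx_cent h2 B D hy c (hv z rfl B.p.zs (h.central y hy.1).symm)
    fun q hq => hv q (h.central q hq))
  obtain ⟨j, N⟩ := exists_j h2 B D hd
  obtain ⟨u, hu, sh⟩ : ∃ u, cls u y ∧ (Cu 0 u ∨
      (sqNorm (u : GolayPt → ℤ) = 32 ∧ dotInt (vU : GolayPt → ℤ) (u : GolayPt → ℤ) = 0)) := by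
    by_cases n : y = z
    · obtain ⟨u, hu⟩ := M.ex_cls y hy.1
      exact ⟨u, hu, .inl ((M.cu_zero_iff hu).2 (.inr n))⟩
    obtain ⟨k, hk⟩ := M.exists_frame hy.1 c n
    have := M.smul k⁻¹ (M.congr hk (.inr H99.BC.cg_e8_U))
    rw [show ((k⁻¹ : centralizer ({z} : Set G)) : G) * (k * y * (k : G)⁻¹) *
      ((k⁻¹ : centralizer ({z} : Set G)) : G)⁻¹ = y by rw [coe_inv]; group] at this
    exact ⟨_, this, .inr ⟨(sqNorm_co0 _ _).trans norm_UP, (dot_of_fix (φ k⁻¹).2 _).trans dot_UUP⟩⟩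
  refine N.eq_zero (T := fun γ => γ ∈ MM ∧ Cu ((γ : Co0) • u) u)
    (mem_Fx.2 fun k hk => hQ k ((M.ker k).1 hk)) (fun γ hγ => ?_) fun a ha hf =>
      duad_fix h2 sh ((M.commute_iff hu B.hs).1 (B.p.h'.central y hy.2)) (fun e he => ?_) ha
        fun γ h1 h2 => hf γ ⟨h1, h2⟩
  · obtain ⟨k, ks, rfl⟩ := B.lift hγ.1
    have kz : Commute (k : G) z := mem_cent_iff.1 k.2
    refine ⟨k, rfl, ?_⟩
    by_cases ky : (k : G) * y = y * k
    · exact hv k kz ks ky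
    obtain ⟨a, ha, as, ay⟩ := h.exists_conj_cent B.p.sQ B.p.h'.sq hy.1 (fun e => ky (by simp [e]))
      (fun e => ky (e ▸ kz)) (fun e => ky (e ▸ ks)) fun e => ky (e ▸ (kz.mul_right ks).eq)
    have e := ((M.eq_iff hu (M.smul k hu)).1 hγ.2.symm).resolve_left fun e => ky (mul_inv_eq_iff_eq_mul.1 e)
    have := hv (a⁻¹ * k) ((Commute.inv_left (h.central a ha)).mul_left kz).eq
      ((Commute.inv_left as).mul_left ks).eq (mul_inv_eq_iff_eq_mul.1 (by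
        calc a⁻¹ * k * y * (a⁻¹ * k)⁻¹ = a⁻¹ * (k * y * (k : G)⁻¹) * a := by group
          _ = y := by rw [e, ← ay]; group))
    change ρ k v = v
    rw [← rep_inv' ρ a (ρ k v), ← rep_mul ρ a⁻¹, this, hQ a ha]
  · obtain ⟨b, hb, rfl⟩ := (M.img_iff B.p B.card' B.hs e).2 he
    exact (B.p.h'.conj hy.2 hb).imp (fun e => (M.eq_iff (M.smul b hu) hu).2 (.inl e.symm))
      fun e => (M.eq_iff (M.smul b hu) (M.add hu B.hs)).2 (.inl e.symm)

theorem fix_zwy (h2 : (2 : F) ≠ 0) (M : Bab z Q φ cls) (D : Dm ρ z Q cls) (hd : finrank F V ≤ 4371)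
    {w y : G} (hw : w ∈ Q) (c : IsConj z w) (n : w ≠ z) (hy : y ∈ Q ⊓ H77.YM.QW Q z w) (c' : IsConj z y) :
    ∀ v ∈ Fx ρ (centralizer {z} ⊓ centralizer {w} ⊓ centralizer {y} : Subgroup G), v = 0 := by
  intro v hv
  obtain ⟨g, σ, x, gz, B⟩ := bs_of M hw c n
  have k : ∀ a b : G, b ∈ centralizer {g * a * g⁻¹} → g⁻¹ * b * g ∈ centralizer {a} := fun a b e =>
    mem_cent_iff.2 (by
      calc g⁻¹ * b * g * a = g⁻¹ * (b * (g * a * g⁻¹)) * g := by group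
        _ = _ := by rw [mem_cent_iff.1 e]; group)
  refine rep_eq_zero (fix_zsy h2 B D hd ⟨conj_mem_of_normalizer (M.h.norm g gz) hy.1, H77.YM.QW_conj hy.2 g⟩
    (c'.trans (isConj_iff.2 ⟨g, rfl⟩)) _ (Wt.conj hv g fun b hb => ⟨⟨⟨k z b ?_, k w b hb.1.2⟩, k y b hb.2⟩, rfl⟩))
  rw [gz, mul_inv_cancel_right]
  exact hb.1.1

end H95.B9
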