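import Mathlib
import Cfsg.Agent.Lib.BRec.Line
import Cfsg.Agent.Lib.BRec.Cls

set_option autoImplicit false
set_option maxRecDepth 100000
set_option linter.unusedSectionVars false

namespace H95.B9

open Cfsg Subgroup H54 H16 H48.BR

variable {G : Type*} [Group G] [Finite G] {z x y : G} {Q : Subgroup G}
  {φ : centralizer ({z} : Set G) →* Stab vU} {cls : leechLattice → G → Prop} {q : ℕ → G} {l : ℕ}

theorem LfA.ne (F : Fr z Q φ cls q) {m : ℕ} (hm : m < 2 ^ 22) (h0 : m ≠ 0) : e q m ≠ 1 ∧ e q m ≠ z := by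
  have B := F.bas
  refine ⟨fun h => h0 (B.eq_of_ap (Or.inl (h.trans (e_zero q).symm)) hm (by norm_num)), fun h => h0 ?_⟩
  exact B.eq_of_ap (Or.inr (by rw [e_zero, one_mul]; exact h)) hm (by norm_num)

theorem LfA.wm : ∀ l < 5, Wm l < 2 ^ 22 ∧ Wm l ≠ 0 ∧ Wm l &&& Dm l = Wm l := by decide +kernel

theorem LfA.ex (F : Fr z Q φ cls q) (hl : l < 5) :
    ∃ a ∈ Q, a * (z * e q (Wm l)) * a⁻¹ = e q (Wm l) := by
  obtain ⟨c1, c2, -⟩ := LfA.wm l hl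
  obtain ⟨n1, n2⟩ := LfA.ne F c1 c2
  obtain ⟨a, ha, h⟩ := F.M.h.exists_conj (F.e_mem _) n1 n2
  refine ⟨a, ha, ?_⟩
  rw [← conj_mul, h, F.M.h.central a ha, mul_inv_cancel_right, F.bas.e_z, ← mul_assoc, F.bas.zz, one_mul]

theorem lf_w (F : Fr z Q φ cls q) (hl : l < 5) (h : Cand Q z q l x) :
    e q (Wm l) ∈ Q ∧ IsConj z (e q (Wm l)) ∧ e q (Wm l) ≠ z ∧
      x * e q (Wm l) = e q (Wm l) * x := by
  obtain ⟨c1, c2, c3⟩ := LfA.wm l hl
  obtain ⟨a, -, ha⟩ := LfA.ex F hl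
  refine ⟨F.e_mem _, (isConj_iff.2 ⟨x, h.1.2.2.1⟩).trans (isConj_iff.2 ⟨a, ha⟩), (LfA.ne F c1 c2).2,
    h.1.2.2.2 _ c3⟩

theorem LfA.conj (F : Fr z Q φ cls q) {a m : ℕ} (hm : m < 2 ^ 22 ∧ m ≠ 0)
    (c : isC a m = true ∧ isV a = true ∧ dotC a a = 32 ∧ dotC UC a = 0) : IsConj z (e q m) := by
  have h1 := F.cls_of_isC up_chk (H77.YM.Ap.refl _ _)
  have h2 := F.cls_of_isC c.1 (H77.YM.Ap.refl _ _)
  have k := code_lv c.2.1
  rw [code_UP.lv_eq] at h1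
  obtain ⟨g, hg⟩ := F.M.conj_of_min h1 h2 (by rw [code_UP.norm]; decide +kernel) (k.norm.trans c.2.2.1)
    (by rw [code_U.dot code_UP, code_U.dot k, c.2.2.2]; decide +kernel) fun h =>
      ((F.M.cu_zero_iff h2).1 h).elim (LfA.ne F hm.1 hm.2).1 (LfA.ne F hm.1 hm.2).2
  exact (F.conj (F.cls_y (H77.YM.Ap.refl _ _))).trans (isConj_iff.2 ⟨_, hg⟩)

def LfA.wv : List ℕ :=
  [0xc00100010001000100010001000100010001000100010001000100010001000100010001000100010001000100014,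
  0xe000e0010001000100010001200100010001000100010000e001200100010001200100010001000100010000e0012,
  0xe0010001200100012001000100010000e0010001000100012000e0010000e00100010001000100010001000100012,
  0x100012000e001000100010000e0012001000100010000e0010000e0010001000100010001000120010001000120010,
  0x10000e001200100010001000100010001200100012000e0010000e001000120010000e001000100010001000100010]

theorem LfA.chk : ∀ p ∈ [(5, 6), (3, 6), (5, 7), (0, 3), (1, 4)], p.1 < 11 ∧ p.2 < 11 ∧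
    be (2 ^ p.1) (2 ^ p.2) = 0 ∧ ((2 ^ p.1 ^^^ 2 ^ p.2) < 2 ^ 22 ∧ (2 ^ p.1 ^^^ 2 ^ p.2) ≠ 0) ∧
    ∃ a ∈ LfA.wv, isC a (2 ^ p.1 ^^^ 2 ^ p.2) = true ∧ isV a = true ∧ dotC a a = 32 ∧ dotC UC a = 0 := by
  decide +kernel

theorem lf_y (F : Fr z Q φ cls q) {p : ℕ × ℕ} (hp : p ∈ [(5, 6), (3, 6), (5, 7), (0, 3), (1, 4)]) :
    q p.1 * q p.2 ∈ Q ∧ IsConj z (q p.1 * q p.2) ∧ q p.1 * q p.2 ≠ z ∧
      ∀ i < 11, q i * (q p.1 * q p.2) = q p.1 * q p.2 * q i := by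
  have B := F.bas
  obtain ⟨c1, c2, c3, c4, a, -, c5⟩ := LfA.chk p hp
  have e1 : q p.1 * q p.2 = e q (2 ^ p.1 ^^^ 2 ^ p.2) := by
    rw [← B.e_mul0 c3, e_pow q (by omega), e_pow q (by omega)]
  refine ⟨e1 ▸ F.e_mem _, e1 ▸ LfA.conj F c4 c5, e1 ▸ (LfA.ne F c4.1 c4.2).2, fun i hi => ?_⟩
  exact (B.q_comm hi c1).mul_right (B.q_comm hi c2)

theorem lf_QW (F : Fr z Q φ cls q) (hl : l < 5) (h : Cand Q z q l x) (hy : y ∈ Q)
    (c : x * y = y * x) : y ∈ H77.YM.QW Q z (e q (Wm l)) := by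
  obtain ⟨hw, hc, hne, -⟩ := lf_w F hl h
  obtain ⟨a, ha, e1⟩ := LfA.ex F hl
  have h1 := H77.YM.QW_conj' ((H77.YM.QW_z F.M.h).symm ▸ hy : y ∈ H77.YM.QW Q z z) h.1.2.2.1
  rw [c, mul_inv_cancel_right] at h1
  have h2 := H77.YM.QW_conj' h1 e1
  obtain ⟨g, hg⟩ := isConj_iff.1 hc
  have hz : z ∈ H77.YM.QW Q z (e q (Wm l)) := by
    rw [← hg, H77.YM.QW_eq F.M.h]
    exact (F.M.pair (hg ▸ hw) (hg ▸ hne)).zQ
  rcases F.M.h.conj hy ha with k | k <;> rw [k] at h2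
  · exact h2
  · exact (mul_mem_cancel_right hz).1 h2

theorem LfA.nrm' {w g : G} (gg : g⁻¹ * z * g = z ∨ g⁻¹ * z * g = z * w)
    (gw : g⁻¹ * w * g = w ∨ g⁻¹ * w * g = w * z) :
    ∀ k ∈ centralizer ({z} : Set G) ⊓ centralizer {w},
      g * k * g⁻¹ ∈ centralizer ({z} : Set G) ⊓ centralizer {w} := by
  intro k hk
  have k1 : Commute k z := mem_cent_iff.1 hk.1
  have k2 : Commute k w := mem_cent_iff.1 hk.2
  have key : ∀ s, Commute k (g⁻¹ * s * g) → g * k * g⁻¹ * s = s * (g * k * g⁻¹) := fun s c => by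
    calc _ = g * (k * (g⁻¹ * s * g)) * g⁻¹ := by group
      _ = _ := by rw [c.eq]; group
  refine ⟨mem_cent_iff.2 (key _ ?_), mem_cent_iff.2 (key _ ?_)⟩
  · rcases gg with h | h <;> rw [h]
    exacts [k1, k1.mul_right k2]
  · rcases gw with h | h <;> rw [h]
    exacts [k2, k2.mul_right k1]

theorem lf_nx (F : Fr z Q φ cls q) (hl : l < 5) (h : Cand Q z q l x) :
    ∀ k ∈ centralizer ({z} : Set G) ⊓ centralizer {e q (Wm l)},
      x * k * x⁻¹ ∈ centralizer ({z} : Set G) ⊓ centralizer {e q (Wm l)} := by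
  have xi : x⁻¹ = x := inv_eq_of_mul_eq_one_left h.1.1
  refine LfA.nrm' (Or.inr ?_) (Or.inl ?_)
  · have := h.1.2.2.1
    rwa [xi] at this ⊢
  · rw [mul_assoc, ← (lf_w F hl h).2.2.2, inv_mul_cancel_left]

theorem lf_nq (M : Bab z Q φ cls) {w : G} (hw : w ∈ Q) (hy : y ∈ Q) :
    ∀ k ∈ centralizer ({z} : Set G) ⊓ centralizer {w},
      y * k * y⁻¹ ∈ centralizer ({z} : Set G) ⊓ centralizer {w} := by
  refine LfA.nrm' (Or.inl ?_) ?_
  · rw [mul_assoc, ← M.h.central y hy, inv_mul_cancel_left]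
  · simpa using M.h.conj hw (inv_mem hy)

theorem lf_fr (M : Bab z Q φ cls) {s : G} (hs : s ∈ Q) (hc : IsConj z s) (hne : s ≠ z) :
    ∃ q, Fr z Q φ cls q := by
  obtain ⟨q, hq⟩ := exists_basis M
  obtain ⟨c, h⟩ := M.exists_frame hs hc hne
  refine ⟨q, M, hq, fun {w} hw => ?_, fun p n k γ => M.img_iff p n k γ⟩
  have h0 : ¬ Cu 0 (e8 none) := by
    rw [M.cu_zero_iff h]
    rintro (k | k)
    · rw [conj_eq_one_iff] at k
      rw [k, isConj_one_left] at hc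
      exact M.h.ne_one hc
    · refine hne ?_
      calc s = (c : G)⁻¹ * (c * s * (c : G)⁻¹) * c := by group
        _ = z := by rw [k, mul_assoc, ← mem_cent_iff.1 c.2, inv_mul_cancel_left]
  obtain ⟨d, -, e1⟩ := M.exists_conj h hw (γ := 1) h0 (by simpa using Cu.refl _)
  exact (hc.trans (isConj_iff.2 ⟨_, rfl⟩)).trans (isConj_iff.2 ⟨_, e1⟩)

end H95.B9
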