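import Mathlib
import Cfsg.Agent.Lib.B59.Sc
import Cfsg.Agent.Lib.B59.LfA
import Cfsg.Agent.Lib.BRec.Nod

/-! The generators of the presented Baby Monster lift to an extension that splits over the centraliser. -/

set_option autoImplicit false
set_option maxRecDepth 100000

namespace H95.B9

open Cfsg Subgroup H54 H16 H48.BR H18.TC H95.B4

variable {F : Type*} [Field F] {G E : Type*} [Group G] [Group E] {V : Type*} [AddCommGroup V] [Module F V]
  {π : E →* G} {ρ : Representation F G V} {ι : V → E}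

theorem lf_ev {H : Subgroup G} {s : G → E} (h : Sec π H s) {u : ℕ → G} {u' : ℕ → E} {R : List ℕ}
    (k : ∀ i ∈ R, u i ∈ H ∧ u' i = s (u i)) : ev u R ∈ H ∧ ev u' R = s (ev u R) := by
  induction R with
  | nil => exact ⟨H.one_mem, h.one.symm⟩
  | cons a R ih =>
    obtain ⟨b, c⟩ := ih fun i hi => k i (List.mem_cons_of_mem _ hi)
    obtain ⟨d, f⟩ := k a List.mem_cons_self
    rw [ev_cons, ev_cons, c, f]
    exact ⟨H.mul_mem b d, (h.mul _ b _ d).symm⟩

theorem lf_nr {K : Subgroup G} {s : G → E} {u : ℕ → G} {u' : ℕ → E} {R : List ℕ}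
    (k : ∀ i ∈ R, π (u' i) = u i ∧ Nr π K s (u' i)) : π (ev u' R) = ev u R ∧ Nr π K s (ev u' R) := by
  induction R with
  | nil => exact ⟨map_one _, Nr.one⟩
  | cons a R ih =>
    obtain ⟨b, c⟩ := ih fun i hi => k i (List.mem_cons_of_mem _ hi)
    obtain ⟨d, f⟩ := k a List.mem_cons_self
    rw [ev_cons, ev_cons, map_mul, b, d]
    exact ⟨rfl, c.mul f⟩

/-- the words that lie in a subgroup with a known section -/
def lfOk (R : List ℕ) : Prop := (∀ k ∈ R, k < 12) ∧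
  ((∃ p ∈ [(5, 6), (3, 6), (5, 7), (0, 3), (1, 4)], p.1 < 22 ∧ p.2 < 22 ∧ ∀ k ∈ R, isL k = true →
    2 ^ p.1 &&& H48.BR.Dm (ix k) = 2 ^ p.1 ∧ 2 ^ p.2 &&& H48.BR.Dm (ix k) = 2 ^ p.2) ∨
  ∃ l < 5, ∀ k ∈ R, isL k = true → ix k = l)

theorem lf_chk : (∀ R ∈ RX, lfOk R) ∧ lfOk (11 :: om) ∧ lfOk (H18.TC.rep 9 [3, 4, 5, 2, 1, 0, 8]) ∧
    lfOk (H18.TC.rep 9 [3, 4, 5, 2, 8, 9, 10]) := by
  unfold lfOk
  decide +kernel

theorem lf_ix : ∀ k < 12, (isL k = true → ix k < 5) ∧ (¬ isL k = true → ix k < 11) := by decide +kernel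

variable [Finite G] {z : G} {Q : Subgroup G} {φ : centralizer ({z} : Set G) →* Stab vU}
  {cls : leechLattice → G → Prop} {q x : ℕ → G}

theorem lf_om (A : Fr z Q φ cls q) (S : Sys Q z q x) : ev (un q x) om = un q x 11 := by
  have B := A.bas
  have X := A.satX S
  obtain ⟨u0, u1, u2, u3, u4, u5, u6, u7, u8, u9, u10, u11⟩ := Fr.un_vals (q := q) (x := x)
  have c := fun l (hl : l < 5) => S.cand l hl
  have m := fun l (hl : l < 5) => S.cu l hl
  have e1 : ev (un q x) om = (x 0 * q 1 * x 2 * q 4 * q 0 * x 1 * q 2) ^ 9 := by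
    simp only [om, ev_rep, ev_cons, ev_nil, one_mul, u1, u2, u3, u4, u5, u6, u8]
  rw [e1, u11]
  refine (A.tri0 (fun l hl => c l (by omega)) (m 0 (by norm_num) 1 (by norm_num))
    (m 0 (by norm_num) 2 (by norm_num))).2.2.resolve_right fun k => ?_
  have k1 : q 6 * e q 96 = q 5 := by
    rw [A.y_eq, (B.q_comm (j := 5) (k := 6) (by norm_num) (by norm_num)).eq, ← mul_assoc,
      B.sq 6 (by norm_num), one_mul]
  have k2 := eq_of_comm_om X (by
    rw [e1, k, k1, u7]; exact ((c 4 (by norm_num)).1.cm (i := 5) (by norm_num) (by decide +kernel)).symm)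
  rw [u6, u7] at k2
  exact B.ncz (by norm_num) (c 4 (by norm_num)) (k2 ▸ B.zq 4 (by norm_num))

theorem lift_hom (A : Fr z Q φ cls q) (X : Xt π ρ ι) {t : G → E} (ht : Sec π (centralizer {z}) t)
    (h1 : ∀ w ∈ Q, IsConj z w → w ≠ z → ∃ t', Sec π (centralizer {w}) t' ∧
      ∀ g ∈ centralizer ({z} : Set G) ⊓ centralizer {w}, t' g = t g)
    (h2 : ∀ w ∈ Q, IsConj z w → w ≠ z → ∀ y ∈ Q ⊓ H77.YM.QW Q z w, IsConj z y →
      ∀ v ∈ Fx ρ (centralizer {z} ⊓ centralizer {w} ⊓ centralizer {y} : Subgroup G), v = 0) :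
    ∃ ψ : Spor.BabyMonster →* E, ∃ g, π (ψ g) ≠ 1 := by
  obtain ⟨x, S⟩ := A.exists_sys
  choose! T hT hA using h1
  have qQ : ∀ i < 11, q i ∈ Q := fun i hi => A.M.mem (A.hq i (by omega))
  have qz : ∀ i < 11, q i ∈ centralizer ({z} : Set G) := fun i hi =>
    mem_cent_iff.2 (A.M.h.central _ (qQ i hi))
  have sw : ∀ l < 5, Sec π (centralizer {e q (Wm l)}) (T (e q (Wm l))) ∧ x l ∈ centralizer {e q (Wm l)} ∧
      ∀ K ≤ centralizer ({z} : Set G) ⊓ centralizer {e q (Wm l)}, (∀ k ∈ K, x l * k * (x l)⁻¹ ∈ K) →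
        Nr π K t (T (e q (Wm l)) (x l)) := fun l hl => by
    obtain ⟨a, b, c, d⟩ := lf_w A hl (S.cand l hl)
    exact ⟨hT _ a b c, mem_cent_iff.2 d, fun K hK n =>
      (Nr.of_sec (hT _ a b c) (hK.trans inf_le_right) (mem_cent_iff.2 d) n).congr
        fun g hg => (hA _ a b c g (hK hg)).symm⟩
  have key : ∀ R, lfOk R → ev (un q x) R = 1 →
      ev (un (fun i => t (q i)) fun l => T (e q (Wm l)) (x l)) R = 1 := by
    rintro R ⟨lt, ⟨p, hp, p1, p2, h⟩ | ⟨l, hl, h⟩⟩ r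
    · obtain ⟨a, b, c, d⟩ := lf_y A hp
      have s := hT _ a b c
      rw [(lf_ev s (u := un q x) fun k hk => ?_).2, r, s.one]
      simp only [un, lt k hk, if_true]
      split_ifs with f
      · have hl := (lf_ix k (lt k hk)).1 f
        have cd := S.cand _ hl
        have cy : x (ix k) * (q p.1 * q p.2) = q p.1 * q p.2 * x (ix k) :=
          ((cd.1.cm p1 (h k hk f).1).mul_right (cd.1.cm p2 (h k hk f).2)).eq
        obtain ⟨a', b', c', d'⟩ := lf_w A hl cd
        obtain ⟨s1, s2, s3⟩ := sw _ hl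
        have n : ∀ g ∈ centralizer ({z} : Set G) ⊓ centralizer {e q (Wm (ix k))} ⊓ centralizer {q p.1 * q p.2},
            x (ix k) * g * (x (ix k))⁻¹ ∈
              centralizer ({z} : Set G) ⊓ centralizer {e q (Wm (ix k))} ⊓ centralizer {q p.1 * q p.2} :=
          fun g hg => ⟨lf_nx A hl cd g hg.1, (centralizer _).mul_mem ((centralizer _).mul_mem (mem_cent_iff.2 cy) hg.2)
            ((centralizer _).inv_mem (mem_cent_iff.2 cy))⟩
        refine ⟨mem_cent_iff.2 cy, Nr.eq X (ht.mono (inf_le_left.trans inf_le_left))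
          (h2 _ a' b' c' _ ⟨a, lf_QW A hl cd a cy⟩ b) (s3 _ inf_le_left n)
          ((Nr.of_sec s inf_le_right (mem_cent_iff.2 cy) n).congr
            fun g hg => (hA _ a b c g ⟨hg.1.1, hg.2⟩).symm) ?_⟩
        rw [s1.proj _ s2, s.proj _ (mem_cent_iff.2 cy)]
      · have hl := (lf_ix k (lt k hk)).2 f
        exact ⟨mem_cent_iff.2 (d _ hl), (hA _ a b c _ ⟨qz _ hl, mem_cent_iff.2 (d _ hl)⟩).symm⟩
    · obtain ⟨a, b, c, d⟩ := lf_w A hl (S.cand l hl)
      obtain ⟨s1, s2, s3⟩ := sw _ hl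
      obtain ⟨g, hg⟩ := isConj_iff.1 b
      have zw : z ∈ H77.YM.QW Q z (e q (Wm l)) := by
        rw [← hg, H77.YM.QW_eq A.M.h]
        exact (A.M.pair (hg ▸ a) (hg ▸ c)).zQ
      obtain ⟨k1, k2⟩ := lf_nr (π := π) (K := centralizer {z} ⊓ centralizer {e q (Wm l)}) (s := t) (u := un q x)
        (u' := un (fun i => t (q i)) fun l => T (e q (Wm l)) (x l)) (R := R) fun k hk => by
          simp only [un, lt k hk, if_true]
          split_ifs with f
          · rw [h k hk f]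
            exact ⟨s1.proj _ s2, s3 _ le_rfl (lf_nx A hl (S.cand l hl))⟩
          · have hl := (lf_ix k (lt k hk)).2 f
            exact ⟨ht.proj _ (qz _ hl), Nr.of_sec ht inf_le_left (qz _ hl) (lf_nq A.M a (qQ _ hl))⟩
      exact Nr.eq X (ht.mono inf_le_left) (fun v hv => h2 _ a b c z ⟨A.M.h.mem, zw⟩ (IsConj.refl z) v
        (Wt.mono hv fun _ h => h.1)) k2 Nr.one (by rw [k1, r, map_one])
  obtain ⟨c1, c2, c3, c4⟩ := lf_chk
  have rx := fun R hR => key R (c1 R hR) ((A.satX S).rel R hR)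
  have sx : Sat (un (fun i => t (q i)) fun l => T (e q (Wm l)) (x l)) 12 RX := by
    refine ⟨fun k => eq_inv_of_mul_eq_one_left ?_, if_neg (lt_irrefl _), rx⟩
    by_cases hk : k < 12
    · simpa only [ev_cons, ev_nil, one_mul] using rx [k, k] ((by decide : ∀ k < 12, [k, k] ∈ RX) k hk)
    · simp only [un, hk, if_false, one_mul]
  have ho := key _ c2 (by rw [ev_cons, lf_om A S, A.un_sq S])
  rw [ev_cons, mul_eq_one_iff_eq_inv, ← sx.inv] at ho
  obtain ⟨ψ, hψ⟩ := H18.YB.exists_hom (sat_RB sx ho (key _ c3 ((A.sat S).rel _ (by decide +kernel)))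
    (key _ c4 ((A.sat S).rel _ (by decide +kernel))))
  refine ⟨ψ, H18.YB.b 2 * H18.YB.b 8, fun k => A.M.h.ne_one ?_⟩
  rw [map_mul, hψ 2 (by norm_num), hψ 8 (by norm_num), map_mul] at k
  have k' : π (t (q 0)) * π (t (q 2)) = 1 := k
  rw [ht.proj _ (qz 0 (by norm_num)), ht.proj _ (qz 2 (by norm_num))] at k'
  simpa [k'] using A.conj5

theorem eqns_Lf : True := by
  have := @lfOk.eq_1
  trivial

end H95.B9
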