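import Mathlib
import Cfsg.Agent.Lib.B59.Lf
import Cfsg.Agent.Lib.B59.Cz
import Cfsg.Agent.Lib.B59.Fy
import Cfsg.Agent.Lib.B43.Wd

/-! Extensions of a group of Baby Monster type by a module of dimension at most 4371. -/

set_option autoImplicit false

namespace H95.B9

open Cfsg Subgroup Module H15 H16 H48.BR H95.B4

variable {F : Type*} [Field F] {G E : Type*} [Group G] [Group E] {V : Type*} [AddCommGroup V] [Module F V]
  {π : E →* G} {ρ : Representation F G V} {ι : V → E} [Finite G] [FiniteDimensional F V]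
  {z s σ x : G} {Q Q' : Subgroup G} {φ : centralizer ({z} : Set G) →* Stab vU}
  {cls : leechLattice → G → Prop}

theorem exists_lift (h2 : (2 : F) ≠ 0) (h3 : (3 : F) ≠ 0) (X : Xt π ρ ι) (B : Bs z s σ x Q Q' φ cls)
    (hd : finrank F V ≤ 4371) (n : ρ z ≠ 1) : ∃ ψ : Spor.BabyMonster →* E, ∃ g, π (ψ g) ≠ 1 := by
  have D := B.dm h2 hd n
  obtain ⟨j, N⟩ := exists_j h2 B D hd
  obtain ⟨π', ι', X', r⟩ := X.res (centralizer {z})
  have c : Nat.card φ.ker = 2 ^ 23 := by
    rw [← B.M.card, show φ.ker = Q.subgroupOf _ from Subgroup.ext fun c => B.M.ker c]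
    exact Nat.card_congr (subgroupOfEquivOfLe fun q hq => mem_cent_iff.2 (B.M.h.central q hq)).toEquiv
  obtain ⟨t, ht⟩ := r (spl_C h2 h3 X' N c)
  obtain ⟨q, A⟩ := lf_fr B.M B.p.sQ (isConj_iff.2 ⟨σ, B.tau.zs⟩) B.p.ne
  exact lift_hom A X ht (fun w hw a b => exists_sec h2 X B.M D hd ht hw a b)
    fun w hw a b y hy k => fix_zwy h2 B.M D hd hw a b hy k

end H95.B9
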